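import Cfsg.Agent.Lib.ReflectionsSpinor.PSpFieldAut
import Cfsg.Agent.Lib.ReflectionsSpinor.GraphCount

/-!
# Counting semilinear automorphisms of `PSp_{2m}(F)`
-/

set_option autoImplicit false
set_option linter.unusedSectionVars false

open Matrix
open CfsgLib.ClassicalLinear CfsgLib.ReflectionsSpinor CfsgLib.ReflectionsSpinor.PSpAut

namespace CfsgLib.Parabolic.PSpAutCount

universe u

variable {m : ℕ} {F : Type u} [Field F] [Fintype F]

local notation "M2" => Matrix (Fin m ⊕ Fin m) (Fin m ⊕ Fin m) F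
local notation "Sp" => Matrix.symplecticGroup (Fin m) F
local notation "GS" => Cfsg.GSp m F
local notation "PS" => Cfsg.PSp m F

theorem card_gsp (hm : 1 ≤ m) : Nat.card ↥GS = Nat.card Sp * (Fintype.card F - 1) := by
  classical
  let d : Fˣ → M2 := fun c => Matrix.fromBlocks ((c : F) • 1) 0 0 1
  have hdet : ∀ c, IsUnit (d c).det := fun c => by
    rw [Matrix.det_fromBlocks_zero₂₁, Matrix.det_one, mul_one, Matrix.det_smul, Matrix.det_one, mul_one]
    exact isUnit_iff_ne_zero.2 (pow_ne_zero _ c.ne_zero)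
  have hd : ∀ c, (d c)ᵀ * Matrix.J (Fin m) F * d c = (c : F) • Matrix.J (Fin m) F := fun c => by
    simp [d, Matrix.J, Matrix.fromBlocks_transpose, Matrix.fromBlocks_multiply, Matrix.fromBlocks_smul]
  let D : Fˣ → ↥GS := fun c =>
    ⟨Matrix.GeneralLinearGroup.mk'' (d c) (hdet c), mem_gsp_iff.2 ⟨c, hd c⟩⟩
  have hval : ∀ (c : Fˣ) (s : Sp), (Units.val (D c * spS s).1 : M2)ᵀ * Matrix.J (Fin m) F *
      (Units.val (D c * spS s).1 : M2) = (c : F) • Matrix.J (Fin m) F := fun c s => by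
    have e : (Units.val (D c * spS s).1 : M2) = d c * (s : M2) := rfl
    rw [e, Matrix.transpose_mul]
    calc (s : M2)ᵀ * (d c)ᵀ * Matrix.J (Fin m) F * (d c * (s : M2))
        = (s : M2)ᵀ * ((d c)ᵀ * Matrix.J (Fin m) F * d c) * (s : M2) := by simp only [Matrix.mul_assoc]
      _ = _ := by rw [hd, Matrix.mul_smul, Matrix.smul_mul, SymplecticGroup.mem_iff'.1 s.2]
  rw [← Fintype.card_units, ← Nat.card_eq_fintype_card (α := Fˣ), ← Nat.card_prod]
  refine (Nat.card_eq_of_bijective (fun p : Sp × Fˣ => D p.2 * spS p.1) ⟨?_, ?_⟩).symm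
  · rintro ⟨s, c⟩ ⟨t, c'⟩ h
    obtain rfl : c = c' := Units.ext (smul_J_injective hm (by
      rw [← hval c s, ← hval c' t]
      exact congrArg (fun g : ↥GS => (Units.val g.1 : M2)ᵀ * Matrix.J (Fin m) F * (Units.val g.1 : M2)) h))
    have h1 := mul_left_cancel h
    exact Prod.ext (Subtype.ext (congrArg (fun g : ↥GS => (Units.val g.1 : M2)) h1)) rfl
  · intro g
    obtain ⟨c, hc⟩ := mem_gsp_iff.1 g.2
    set h : ↥GS := (D c)⁻¹ * g with hh
    have e : (Units.val g.1 : M2) = d c * (Units.val h.1 : M2) := by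
      rw [show g = D c * h from (mul_inv_cancel_left _ _).symm]
      rfl
    have hs : (Units.val h.1 : M2) ∈ Sp := by
      refine SymplecticGroup.mem_iff'.2 (smul_right_injective _ c.ne_zero ?_)
      show (c : F) • _ = (c : F) • _
      rw [← hc, e, Matrix.transpose_mul]
      calc (c : F) • ((Units.val h.1 : M2)ᵀ * Matrix.J (Fin m) F * (Units.val h.1 : M2))
          = (Units.val h.1 : M2)ᵀ * ((d c)ᵀ * Matrix.J (Fin m) F * d c) * (Units.val h.1 : M2) := by
            rw [hd, Matrix.mul_smul, Matrix.smul_mul]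
        _ = _ := by simp only [Matrix.mul_assoc]
    exact ⟨(⟨_, hs⟩, c), Subtype.ext (Units.ext e.symm)⟩

theorem card_inndiag (hm : 2 ≤ m) :
    Nat.card (toAutHom (m := m) (F := F)).range =
      Nat.gcd 2 (Fintype.card F - 1) * Nat.card PS := by
  haveI : Nonempty (Fin m ⊕ Fin m) := ⟨Sum.inl ⟨0, by omega⟩⟩
  have hk : Nat.card (toAutHom (m := m) (F := F)).ker = Fintype.card F - 1 := by
    rw [toAutHom_ker hm, Nat.card_congr (Subgroup.subgroupOfEquivOfLe scalars_le_gsp).toEquiv,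
      card_scalars, Nat.card_eq_fintype_card]
  have h := Subgroup.index_mul_card (toAutHom (m := m) (F := F)).ker
  rw [hk, card_gsp (by omega), Subgroup.index_ker] at h
  have hpos : 0 < Fintype.card F - 1 := by have := Fintype.one_lt_card (α := F); omega
  rw [Nat.eq_of_mul_eq_mul_right hpos h, Subgroup.card_eq_card_quotient_mul_card_subgroup (Subgroup.center Sp),
    card_center_sp (by omega), mul_comm]

/-- A semilinear automorphism from a pair. -/
noncomputable def semiPair (x : (toAutHom (m := m) (F := F)).range × (F ≃+* F)) : MulAut (Cfsg.PSp m F) :=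
  x.1.1 * semiAut 1 x.2

theorem semiPair_eq (g : ↥GS) (σ : F ≃+* F) :
    semiPair (⟨toAutHom g, g, rfl⟩, σ) = semiAut g σ := by
  show semiAut g (1 : F ≃+* F) * semiAut 1 σ = semiAut g σ
  rw [semiAut_mul, one_mul, map_one, mul_one]

theorem semiPair_injective (hm : 2 ≤ m) : Function.Injective (semiPair (m := m) (F := F)) := by
  rintro ⟨⟨_, g, rfl⟩, σ⟩ ⟨⟨_, h, rfl⟩, τ⟩ e
  rw [semiPair_eq, semiPair_eq] at e
  have e1 : (semiAut g σ)⁻¹ * semiAut h τ = 1 := inv_mul_eq_one.2 e
  rw [semiAut_inv, semiAut_mul, semiAut_eq_one_iff hm] at e1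
  obtain rfl : σ = τ := inv_mul_eq_one.1 e1.1
  refine Prod.ext (Subtype.ext ?_) rfl
  show toAutHom g = toAutHom h
  have e2 : semiAut g σ * (semiAut (1 : ↥GS) σ)⁻¹ = semiAut h σ * (semiAut (1 : ↥GS) σ)⁻¹ := by rw [e]
  rw [semiAut_inv, inv_one, map_one, semiAut_mul, semiAut_mul, map_one, mul_one, mul_one, mul_inv_cancel] at e2
  exact e2

theorem exists_semiPair (g : ↥GS) (σ : F ≃+* F) : ∃ x, semiPair (m := m) x = semiAut g σ :=
  ⟨_, semiPair_eq g σ⟩

end CfsgLib.Parabolic.PSpAutCount
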