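/-
Discriminant classification of symmetric bilinear forms over finite fields of odd characteristic, and
the criterion for a totally isotropic subspace of half the dimension.
-/
import Mathlib
import Cfsg.Agent.Lib.Forms.SymmOrtho
import Cfsg.Agent.Lib.Forms.OddFinite

set_option autoImplicit false
set_option linter.unusedSectionVars false

namespace CfsgLib.DiagForms

open Module

variable {F V : Type*} [Field F] [AddCommGroup V] [Module F V]

lemma det_toMatrix_isSquare_mul {ι κ : Type*} [Fintype ι] [DecidableEq ι] [Fintype κ]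
    [DecidableEq κ] (B : LinearMap.BilinForm F V) (b : Basis ι F V) (c : Basis κ F V) :
    IsSquare ((LinearMap.BilinForm.toMatrix b B).det * (LinearMap.BilinForm.toMatrix c B).det) := by
  let e : ι ≃ κ := b.indexEquiv c
  have hc : (LinearMap.BilinForm.toMatrix c B).det = (LinearMap.BilinForm.toMatrix (c.reindex e.symm) B).det := by
    rw [show LinearMap.BilinForm.toMatrix (c.reindex e.symm) B = (LinearMap.BilinForm.toMatrix c B).submatrix e e by
      ext i j; simp [LinearMap.BilinForm.toMatrix_apply], Matrix.det_submatrix_equiv_self]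
  rw [hc, ← LinearMap.BilinForm.toMatrix_mul_basis_toMatrix b (c.reindex e.symm) B, Matrix.det_mul,
    Matrix.det_mul, Matrix.det_transpose]
  exact ⟨(LinearMap.BilinForm.toMatrix b B).det * (b.toMatrix (c.reindex e.symm)).det, by ring⟩

lemma det_toMatrix_of_ortho {ι : Type*} [Fintype ι] [DecidableEq ι] (B : LinearMap.BilinForm F V)
    (b : Basis ι F V) (h : ∀ i j, i ≠ j → B (b i) (b j) = 0) :
    (LinearMap.BilinForm.toMatrix b B).det = ∏ i, B (b i) (b i) := by
  rw [show LinearMap.BilinForm.toMatrix b B = Matrix.diagonal fun i => B (b i) (b i) by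
    ext i j
    rcases eq_or_ne i j with rfl | hij
    · simp [LinearMap.BilinForm.toMatrix_apply]
    · simp [LinearMap.BilinForm.toMatrix_apply, hij, h i j hij], Matrix.det_diagonal]

lemma det_ne_zero {ι : Type*} [Fintype ι] [DecidableEq ι] {B : LinearMap.BilinForm F V}
    (hB : B.Nondegenerate) (b : Basis ι F V) : (LinearMap.BilinForm.toMatrix b B).det ≠ 0 :=
  (LinearMap.BilinForm.nondegenerate_iff_det_ne_zero b).mp hB

/-- Forms with the same discriminant class are isometric. -/
theorem isometric_of_isSquare [Finite F] [FiniteDimensional F V] {W : Type*} [AddCommGroup W]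
    [Module F W] [FiniteDimensional F W] (h2 : (2 : F) ≠ 0) {B : LinearMap.BilinForm F V}
    {B' : LinearMap.BilinForm F W} (hS : B.IsSymm) (hB : B.Nondegenerate) (hS' : B'.IsSymm)
    (hB' : B'.Nondegenerate) {ι κ : Type*} [Fintype ι] [DecidableEq ι] [Fintype κ] [DecidableEq κ]
    (b : Basis ι F V) (c : Basis κ F W) (hcard : Fintype.card ι = Fintype.card κ)
    (hdisc : IsSquare ((LinearMap.BilinForm.toMatrix b B).det * (LinearMap.BilinForm.toMatrix c B').det)) :
    ∃ e : V ≃ₗ[F] W, ∀ u v, B' (e u) (e v) = B u v := by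
  classical
  have hV : finrank F V = Fintype.card ι := finrank_eq_card_basis b
  have hW : finrank F W = Fintype.card ι := by rw [finrank_eq_card_basis c, hcard]
  cases hn : Fintype.card ι with
  | zero =>
    rw [hn] at hV hW
    haveI := finrank_zero_iff.mp hV
    haveI := finrank_zero_iff.mp hW
    exact ⟨LinearEquiv.ofFinrankEq V W (hV.trans hW.symm), fun u v => by
      rw [Subsingleton.elim u 0, map_zero]; simp⟩
  | succ n =>
    rw [hn] at hV hW
    obtain ⟨α, hα⟩ : ∃ a : F, ¬IsSquare a := by
      haveI := Fintype.ofFinite F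
      exact FiniteField.exists_nonsquare fun h => h2 (by
        have := ringChar.Nat.cast_ringChar (R := F); rw [h] at this; exact_mod_cast this)
    have hα0 : α ≠ 0 := fun h0 => hα (h0 ▸ IsSquare.zero)
    obtain ⟨v, vo, v1, vl⟩ := CfsgLib.Forms.exists_orthogonal_basis_one h2 B hS hB hV α hα
    obtain ⟨w, wo, w1, wl⟩ := CfsgLib.Forms.exists_orthogonal_basis_one h2 B' hS' hB' hW α hα
    have hv : (LinearMap.BilinForm.toMatrix v B).det = B (v (Fin.last n)) (v (Fin.last n)) := by
      rw [det_toMatrix_of_ortho B v vo]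
      exact Finset.prod_eq_single _ (fun i _ hi => v1 i hi) (fun h => absurd (Finset.mem_univ _) h)
    have hw : (LinearMap.BilinForm.toMatrix w B').det = B' (w (Fin.last n)) (w (Fin.last n)) := by
      rw [det_toMatrix_of_ortho B' w wo]
      exact Finset.prod_eq_single _ (fun i _ hi => w1 i hi) (fun h => absurd (Finset.mem_univ _) h)
    have hsq : IsSquare ((LinearMap.BilinForm.toMatrix v B).det * (LinearMap.BilinForm.toMatrix w B').det) := by
      have h := ((det_toMatrix_isSquare_mul B v b).mul hdisc).mul (det_toMatrix_isSquare_mul B' c w)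
      obtain ⟨r, hr⟩ := h
      refine ⟨r / ((LinearMap.BilinForm.toMatrix b B).det * (LinearMap.BilinForm.toMatrix c B').det), ?_⟩
      rw [div_mul_div_comm, ← hr]
      field_simp [det_ne_zero hB b, det_ne_zero hB' c]
    have hlast : B (v (Fin.last n)) (v (Fin.last n)) = B' (w (Fin.last n)) (w (Fin.last n)) := by
      rw [hv, hw] at hsq
      rcases vl with h | h <;> rcases wl with h' | h' <;> rw [h, h'] at hsq ⊢
      · exact absurd (by rwa [one_mul] at hsq) hα
      · exact absurd (by rwa [mul_one] at hsq) hα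
    refine ⟨v.equiv w (Equiv.refl _), fun x y => ?_⟩
    have h : B'.compl₁₂ (v.equiv w (Equiv.refl _)).toLinearMap
        (v.equiv w (Equiv.refl _)).toLinearMap = B := by
      refine LinearMap.ext_basis v v fun i j => ?_
      simp only [LinearMap.compl₁₂_apply, LinearEquiv.coe_coe, Basis.equiv_apply, Equiv.refl_apply]
      rcases eq_or_ne i j with rfl | hij
      · by_cases hi : i = Fin.last n
        · rw [hi, hlast]
        · rw [v1 i hi, w1 i hi]
      · rw [vo i j hij, wo i j hij]
    exact LinearMap.congr_fun₂ h x y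

lemma det_swap_blocks (m : ℕ) :
    (Matrix.fromBlocks (0 : Matrix (Fin m) (Fin m) F) (1 : Matrix (Fin m) (Fin m) F)
      (1 : Matrix (Fin m) (Fin m) F) (0 : Matrix (Fin m) (Fin m) F)).det = (-1) ^ m := by
  have h : Matrix.fromBlocks (0 : Matrix (Fin m) (Fin m) F) (1 : Matrix (Fin m) (Fin m) F)
      (1 : Matrix (Fin m) (Fin m) F) (0 : Matrix (Fin m) (Fin m) F) *
      Matrix.fromBlocks (1 : Matrix (Fin m) (Fin m) F) 0 (1 : Matrix (Fin m) (Fin m) F) 1 =
      Matrix.fromBlocks (1 : Matrix (Fin m) (Fin m) F) (1 : Matrix (Fin m) (Fin m) F)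
      (1 : Matrix (Fin m) (Fin m) F) (0 : Matrix (Fin m) (Fin m) F) := by simp [Matrix.fromBlocks_multiply]
  have h' := congrArg Matrix.det h
  rw [Matrix.det_mul, Matrix.det_fromBlocks_zero₁₂, Matrix.det_fromBlocks_one₁₁] at h'
  simpa [Matrix.det_neg] using h'

/-- The Gram determinant in the presence of a totally isotropic half. -/
theorem isSquare_disc_of_isotropic_half [FiniteDimensional F V] {B : LinearMap.BilinForm F V}
    (hS : B.IsSymm) {m : ℕ} (hV : finrank F V = 2 * m) {ι : Type*} [Fintype ι] [DecidableEq ι]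
    (b : Basis ι F V) (X : Submodule F V) (hX : finrank F X = m)
    (hiso : ∀ x ∈ X, ∀ y ∈ X, B x y = 0) :
    IsSquare ((-1 : F) ^ m * (LinearMap.BilinForm.toMatrix b B).det) := by
  by_cases h0 : (LinearMap.BilinForm.toMatrix b B).det = 0
  · rw [h0, mul_zero]; exact IsSquare.zero
  obtain ⟨C, hC⟩ := Submodule.exists_isCompl X
  have hCm : finrank F C = m := by
    have := Submodule.finrank_add_eq_of_isCompl hC
    omega
  let c : Basis (Fin m ⊕ Fin m) F V :=
    ((finBasisOfFinrankEq F X hX).prod (finBasisOfFinrankEq F C hCm)).map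
      (Submodule.prodEquivOfIsCompl X C hC)
  have hcX : ∀ i, c (Sum.inl i) ∈ X := fun i => by simp [c]
  let G := LinearMap.BilinForm.toMatrix c B
  have h11 : G.toBlocks₁₁ = 0 := by
    ext i j
    show LinearMap.BilinForm.toMatrix c B (Sum.inl i) (Sum.inl j) = 0
    rw [LinearMap.BilinForm.toMatrix_apply]; exact hiso _ (hcX i) _ (hcX j)
  have h21 : G.toBlocks₂₁ = G.toBlocks₁₂.transpose := by
    ext i j
    show LinearMap.BilinForm.toMatrix c B (Sum.inr i) (Sum.inl j) = LinearMap.BilinForm.toMatrix c B (Sum.inl j) (Sum.inr i)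
    rw [LinearMap.BilinForm.toMatrix_apply, LinearMap.BilinForm.toMatrix_apply, hS.eq]
  have hG : G = Matrix.fromBlocks (0 : Matrix (Fin m) (Fin m) F) (1 : Matrix (Fin m) (Fin m) F)
      (1 : Matrix (Fin m) (Fin m) F) (0 : Matrix (Fin m) (Fin m) F) *
      Matrix.fromBlocks G.toBlocks₁₂.transpose G.toBlocks₂₂ 0 G.toBlocks₁₂ := by
    conv_lhs => rw [← Matrix.fromBlocks_toBlocks G, h11, h21]
    simp [Matrix.fromBlocks_multiply]
  have hdet : G.det = (-1) ^ m * (G.toBlocks₁₂.det * G.toBlocks₁₂.det) := by
    conv_lhs => rw [hG, Matrix.det_mul, det_swap_blocks, Matrix.det_fromBlocks_zero₂₁,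
      Matrix.det_transpose]
  obtain ⟨r, hr⟩ := det_toMatrix_isSquare_mul B b c
  rw [show LinearMap.BilinForm.toMatrix c B = G from rfl, hdet] at hr
  have hr0 : G.toBlocks₁₂.det ≠ 0 := by
    intro h
    rw [h, mul_zero, mul_zero, mul_zero] at hr
    have hG0 : G.det = 0 := by rw [hdet, h, mul_zero, mul_zero]
    apply h0
    have hc := (LinearMap.BilinForm.nondegenerate_iff_det_ne_zero b).mpr h0
    exact absurd hG0 (det_ne_zero hc c)
  exact ⟨r / G.toBlocks₁₂.det, by field_simp; linear_combination hr⟩

/-- Over a finite field of odd characteristic: a totally isotropic half exists iff the signed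
discriminant is a square. -/
theorem exists_isotropic_half_iff [Finite F] [FiniteDimensional F V] (h2 : (2 : F) ≠ 0)
    {B : LinearMap.BilinForm F V} (hS : B.IsSymm) (hB : B.Nondegenerate) {m : ℕ}
    (hV : finrank F V = 2 * m) {ι : Type*} [Fintype ι] [DecidableEq ι] (b : Basis ι F V) :
    (∃ X : Submodule F V, finrank F X = m ∧ ∀ x ∈ X, ∀ y ∈ X, B x y = 0) ↔
      IsSquare ((-1 : F) ^ m * (LinearMap.BilinForm.toMatrix b B).det) := by
  constructor
  · rintro ⟨X, hX, hiso⟩
    exact isSquare_disc_of_isotropic_half hS hV b X hX hiso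
  · intro hsq
    let e₀ : Basis (Fin m ⊕ Fin m) F (Fin m ⊕ Fin m → F) := Pi.basisFun F _
    let M : Matrix (Fin m ⊕ Fin m) (Fin m ⊕ Fin m) F := Matrix.fromBlocks 0 1 1 0
    let B₀ : LinearMap.BilinForm F (Fin m ⊕ Fin m → F) := Matrix.toBilin e₀ M
    have hM : LinearMap.BilinForm.toMatrix e₀ B₀ = M := LinearMap.BilinForm.toMatrix_toBilin _ _
    have hB₀ : B₀.Nondegenerate := by
      rw [LinearMap.BilinForm.nondegenerate_iff_det_ne_zero e₀, hM, det_swap_blocks]
      exact pow_ne_zero _ (neg_ne_zero.mpr one_ne_zero)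
    have hS₀ : B₀.IsSymm := by
      have : B₀.flip = B₀ := by
        refine LinearMap.BilinForm.ext_basis e₀ fun i j => ?_
        rw [LinearMap.BilinForm.flip_apply, ← LinearMap.BilinForm.toMatrix_apply e₀, ← LinearMap.BilinForm.toMatrix_apply e₀, hM]
        rcases i with i | i <;> rcases j with j | j <;> simp [M, Matrix.one_apply, eq_comm]
      exact ⟨fun x y => by
        have hxy := LinearMap.congr_fun₂ this x y
        rw [LinearMap.BilinForm.flip_apply] at hxy
        exact hxy.symm⟩
    have hcard : Fintype.card (Fin m ⊕ Fin m) = Fintype.card ι := by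
      rw [← finrank_eq_card_basis b, hV]; simp; omega
    obtain ⟨f, hf⟩ := isometric_of_isSquare h2 hS₀ hB₀ hS hB e₀ b hcard
      (by rw [hM, det_swap_blocks]; exact hsq)
    refine ⟨(Submodule.span F (Set.range fun i : Fin m => e₀ (Sum.inl i))).map f.toLinearMap,
      ?_, ?_⟩
    · rw [LinearEquiv.finrank_map_eq, finrank_span_eq_card, Fintype.card_fin]
      exact e₀.linearIndependent.comp _ Sum.inl_injective
    · rintro _ ⟨x, hx, rfl⟩ _ ⟨y, hy, rfl⟩
      simp only [LinearEquiv.coe_toLinearMap]
      rw [hf]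
      induction hx using Submodule.span_induction with
      | zero => simp
      | add a a' _ _ ha ha' => simp [ha, ha']
      | smul r a _ ha => simp [ha]
      | mem x hx =>
        induction hy using Submodule.span_induction with
        | zero => simp
        | add a a' _ _ ha ha' => simp [ha, ha']
        | smul r a _ ha => simp [ha]
        | mem y hy =>
          obtain ⟨i, rfl⟩ := hx
          obtain ⟨j, rfl⟩ := hy
          rw [← LinearMap.BilinForm.toMatrix_apply e₀, hM]
          simp [M]

end CfsgLib.DiagForms
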