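/-
Double counting of totally isotropic two-dimensional subspaces.
-/
import Mathlib

set_option autoImplicit false

namespace CfsgLib.TILines

open Module

variable {F V : Type*} [Field F] [Finite F] [AddCommGroup V] [Module F V] [Finite V]
variable (R : V → V → Prop)

/-- The two-dimensional subspaces on which `R` holds identically. -/
def IsLine (W : Submodule F V) : Prop := finrank F W = 2 ∧ ∀ u ∈ W, ∀ v ∈ W, R u v

lemma card_span_singleton {v : V} (hv : v ≠ 0) :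
    Nat.card (F ∙ v : Submodule F V) = Nat.card F := by
  rw [Module.natCard_eq_pow_finrank (K := F), finrank_span_singleton hv, pow_one]

lemma span_pair_finrank {v w : V} (hv : v ≠ 0) (hw : w ∉ (F ∙ v : Submodule F V)) :
    finrank F ↥((F ∙ v) ⊔ (F ∙ w) : Submodule F V) = 2 := by
  have hw0 : w ≠ 0 := fun h => hw (h ▸ Submodule.zero_mem _)
  have h1 : (F ∙ v : Submodule F V) ⊓ (F ∙ w) = ⊥ := by
    refine (Submodule.eq_bot_iff _).2 fun x hx => ?_
    obtain ⟨c, rfl⟩ := Submodule.mem_span_singleton.1 hx.2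
    by_cases hc : c = 0
    · simp [hc]
    · exact absurd (by simpa [hc] using Submodule.smul_mem _ c⁻¹ hx.1) hw
  have := Submodule.finrank_sup_add_finrank_inf_eq (F ∙ v : Submodule F V) (F ∙ w)
  rw [h1, finrank_bot, finrank_span_singleton hv, finrank_span_singleton hw0] at this
  omega

/-- Lines through a fixed vector. -/
theorem card_through_mul
    (hR : ∀ v w, R v v → R v w → R w v → R w w → ∀ u ∈ (F ∙ v : Submodule F V) ⊔ (F ∙ w),
      ∀ u' ∈ (F ∙ v : Submodule F V) ⊔ (F ∙ w), R u u')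
    {v : V} (hv : v ≠ 0) (hvv : R v v) :
    Nat.card {W : Submodule F V // finrank F W = 2 ∧ v ∈ W ∧ ∀ u ∈ W, ∀ w ∈ W, R u w}
        * (Nat.card F ^ 2 - Nat.card F) + Nat.card F
      = Nat.card {w : V // R v w ∧ R w v ∧ R w w} := by
  classical
  have := Fintype.ofFinite V
  set T := {W : Submodule F V // finrank F W = 2 ∧ v ∈ W ∧ ∀ u ∈ W, ∀ w ∈ W, R u w} with hT
  have hmem : ∀ u ∈ (F ∙ v : Submodule F V), R v u ∧ R u v ∧ R u u := fun u hu =>
    have h := hR v v hvv hvv hvv hvv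
    have hv' : v ∈ (F ∙ v : Submodule F V) ⊔ (F ∙ v) :=
      Submodule.mem_sup_left (Submodule.mem_span_singleton_self v)
    have hu' := Submodule.mem_sup_left (T := (F ∙ v : Submodule F V)) hu
    ⟨h _ hv' _ hu', h _ hu' _ hv', h _ hu' _ hu'⟩
  -- split off the span of v
  have h1 : Nat.card {w : V // R v w ∧ R w v ∧ R w w}
      = Nat.card (F ∙ v : Submodule F V)
        + Nat.card {w : V // w ∉ (F ∙ v : Submodule F V) ∧ R v w ∧ R w v ∧ R w w} := by
    rw [← Nat.card_sum]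
    refine (Nat.card_congr (Equiv.ofBijective
      (Sum.elim (fun u : (F ∙ v : Submodule F V) => (⟨u.1, hmem _ u.2⟩ : {w : V // R v w ∧ R w v ∧ R w w}))
        fun w => ⟨w.1, w.2.2⟩) ⟨?_, ?_⟩)).symm
    · rintro (a | a) (b | b) h <;> simp only [Sum.elim_inl, Sum.elim_inr, Subtype.mk.injEq] at h
      · rw [Subtype.ext h]
      · exact absurd (h ▸ a.2) b.2.1
      · exact absurd (h ▸ b.2) a.2.1
      · rw [Subtype.ext h]
    · intro w
      by_cases hw : w.1 ∈ (F ∙ v : Submodule F V)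
      · exact ⟨.inl ⟨w.1, hw⟩, rfl⟩
      · exact ⟨.inr ⟨w.1, hw, w.2⟩, rfl⟩
  have h2 : Nat.card {w : V // w ∉ (F ∙ v : Submodule F V) ∧ R v w ∧ R w v ∧ R w w}
      = Nat.card (Σ W : T, {w : V // w ∈ W.1 ∧ w ∉ (F ∙ v : Submodule F V)}) := by
    refine (Nat.card_congr (Equiv.ofBijective
      (fun p => (⟨p.2.1, p.2.2.2, p.1.2.2.2 v p.1.2.2.1 _ p.2.2.1,
        p.1.2.2.2 _ p.2.2.1 v p.1.2.2.1, p.1.2.2.2 _ p.2.2.1 _ p.2.2.1⟩ :
        {w : V // w ∉ (F ∙ v : Submodule F V) ∧ R v w ∧ R w v ∧ R w w})) ⟨?_, ?_⟩)).symm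
    · rintro ⟨W, w⟩ ⟨W', w'⟩ h
      simp only [Subtype.mk.injEq] at h
      have key : ∀ (W : T) (z : V), z ∈ W.1 → z ∉ (F ∙ v : Submodule F V) →
          (F ∙ v) ⊔ (F ∙ z) = W.1 := fun W z hz hz' =>
        Submodule.eq_of_le_of_finrank_eq (sup_le ((Submodule.span_singleton_le_iff_mem _ _).2 W.2.2.1)
          ((Submodule.span_singleton_le_iff_mem _ _).2 hz)) (by rw [span_pair_finrank hv hz', W.2.1])
      have hWW : W = W' := Subtype.ext (by
        rw [← key W w.1 w.2.1 w.2.2, h, key W' w'.1 w'.2.1 w'.2.2])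
      subst hWW
      rw [Subtype.ext h]
    · intro w
      refine ⟨⟨⟨(F ∙ v) ⊔ (F ∙ w.1), span_pair_finrank hv w.2.1,
        Submodule.mem_sup_left (Submodule.mem_span_singleton_self v),
        hR v w.1 hvv w.2.2.1 w.2.2.2.1 w.2.2.2.2⟩, w.1,
        Submodule.mem_sup_right (Submodule.mem_span_singleton_self _), w.2.1⟩, rfl⟩
  have h3 : ∀ W : T, Nat.card {w : V // w ∈ W.1 ∧ w ∉ (F ∙ v : Submodule F V)}
      = Nat.card F ^ 2 - Nat.card F := by
    intro W
    have hle : (F ∙ v : Submodule F V) ≤ W.1 :=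
      (Submodule.span_singleton_le_iff_mem _ _).2 W.2.2.1
    refine (Nat.card_coe_set_eq {w : V | w ∈ W.1 ∧ w ∉ (F ∙ v : Submodule F V)}).trans ?_
    rw [show {w : V | w ∈ W.1 ∧ w ∉ (F ∙ v : Submodule F V)}
      = (W.1 : Set V) \ ((F ∙ v : Submodule F V) : Set V) from rfl,
      Set.ncard_sdiff hle, ← Nat.card_coe_set_eq, ← Nat.card_coe_set_eq]
    show Nat.card W.1 - Nat.card (F ∙ v : Submodule F V) = _
    rw [card_span_singleton hv, Module.natCard_eq_pow_finrank (K := F) (V := W.1), W.2.1]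
  rw [h1, h2, Nat.card_sigma, card_span_singleton hv, Finset.sum_congr rfl fun W _ => h3 W,
    Finset.sum_const, Finset.card_univ, ← Nat.card_eq_fintype_card, smul_eq_mul]
  omega

/-- All lines, from the common number through each isotropic vector. -/
theorem card_lines_mul (k : ℕ)
    (hk : ∀ v : V, v ≠ 0 → R v v →
      Nat.card {W : Submodule F V // finrank F W = 2 ∧ v ∈ W ∧ ∀ u ∈ W, ∀ w ∈ W, R u w} = k) :
    Nat.card {W : Submodule F V // finrank F W = 2 ∧ ∀ u ∈ W, ∀ w ∈ W, R u w}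
        * (Nat.card F ^ 2 - 1)
      = Nat.card {v : V // v ≠ 0 ∧ R v v} * k := by
  classical
  have := Fintype.ofFinite V
  set S := {v : V // v ≠ 0 ∧ R v v}
  set T := {W : Submodule F V // finrank F W = 2 ∧ ∀ u ∈ W, ∀ w ∈ W, R u w} with hT
  have e : Nat.card (Σ W : T, {v : V // v ∈ W.1 ∧ v ≠ 0})
      = Nat.card (Σ v : S, {W : Submodule F V //
          finrank F W = 2 ∧ v.1 ∈ W ∧ ∀ u ∈ W, ∀ w ∈ W, R u w}) :=
    Nat.card_congr
      { toFun := fun p => ⟨⟨p.2.1, p.2.2.2, p.1.2.2 _ p.2.2.1 _ p.2.2.1⟩,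
          ⟨p.1.1, p.1.2.1, p.2.2.1, p.1.2.2⟩⟩
        invFun := fun p => ⟨⟨p.2.1, p.2.2.1, p.2.2.2.2⟩, ⟨p.1.1, p.2.2.2.1, p.1.2.1⟩⟩
        left_inv := fun _ => rfl
        right_inv := fun _ => rfl }
  have h3 : ∀ W : T, Nat.card {v : V // v ∈ W.1 ∧ v ≠ 0} = Nat.card F ^ 2 - 1 := by
    intro W
    refine (Nat.card_coe_set_eq {v : V | v ∈ W.1 ∧ v ≠ 0}).trans ?_
    rw [show {v : V | v ∈ W.1 ∧ v ≠ 0} = (W.1 : Set V) \ {0} from rfl,
      Set.ncard_sdiff (Set.singleton_subset_iff.2 W.1.zero_mem), Set.ncard_singleton,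
      ← Nat.card_coe_set_eq]
    show Nat.card W.1 - 1 = _
    rw [Module.natCard_eq_pow_finrank (K := F) (V := W.1), W.2.1]
  have hk' : ∀ v : S, Nat.card {W : Submodule F V //
      finrank F W = 2 ∧ v.1 ∈ W ∧ ∀ u ∈ W, ∀ w ∈ W, R u w} = k := fun v => hk v.1 v.2.1 v.2.2
  rw [Nat.card_sigma, Nat.card_sigma] at e
  simp only [h3, hk', Finset.sum_const, Finset.card_univ, ← Nat.card_eq_fintype_card,
    smul_eq_mul] at e
  exact e

end CfsgLib.TILines
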