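/-
Isotropic vectors orthogonal to an isotropic vector, for the standard Hermitian form.
-/
import Cfsg.Agent.Lib.ClassicalForms.Unitary.Card
import Cfsg.Agent.Lib.Parabolic.TILines

set_option autoImplicit false

namespace CfsgLib.HermLines

open CfsgLib.ClassicalForms Module

variable {F : Type*} [Field F] [Finite F] {q : ℕ}

lemma card_fixed (hF : Nat.card F = q ^ 2) (c : Conj F q) :
    Nat.card {x : F // c.σ x = x} = q := by
  classical
  have := Fintype.ofFinite F
  have hq := two_le_q hF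
  have e : {x : F // c.σ x = x} ≃ Option {x : Fˣ // x ^ (q - 1) = 1} :=
    { toFun := fun x => if h : x.1 = 0 then none else some ⟨Units.mk0 x.1 h, Units.ext (by
        have h1 : x.1 ^ q = x.1 := by rw [← c.apply]; exact x.2
        have h2 : x.1 ^ (q - 1) * x.1 = 1 * x.1 := by
          rw [← pow_succ, Nat.sub_add_cancel (by omega), h1, one_mul]
        simpa using mul_right_cancel₀ h h2)⟩
      invFun := fun o => o.elim ⟨0, map_zero _⟩ fun x => ⟨(x.1 : F), by
        rw [c.apply, ← Units.val_pow_eq_pow_val]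
        congr 1
        calc (x.1 : Fˣ) ^ q = x.1 ^ (q - 1) * x.1 := by rw [← pow_succ, Nat.sub_add_cancel (by omega)]
          _ = x.1 := by rw [x.2, one_mul]⟩
      left_inv := fun x => by
        by_cases h : x.1 = 0
        · simp only [h, dite_true, Option.elim_none]; exact Subtype.ext h.symm
        · simp [h]
      right_inv := fun o => by
        cases o with
        | none => simp
        | some x => simp }
  rw [Nat.card_congr e, Nat.card_eq_fintype_card, Fintype.card_option, ← Nat.card_eq_fintype_card,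
    card_units_pow_eq_one hF, Nat.gcd_eq_right (Dvd.intro_left _ rfl)]
  omega

variable {n : ℕ}

/-- `q · S(v) + q^(2n) = q N₀(n) + q^(2n-2)`, `S(v)` the isotropic vectors orthogonal to `v`. -/
theorem card_iso_perp (hF : Nat.card F = q ^ 2) (c : Conj F q) {v : Fin (n + 1) → F} (hv : v ≠ 0)
    (hvv : Cfsg.hermForm (n + 1) F q v v = 0) :
    q * Nat.card {w : Fin (n + 1) → F // Cfsg.hermForm (n + 1) F q v w = 0 ∧
        Cfsg.hermForm (n + 1) F q w v = 0 ∧ Cfsg.hermForm (n + 1) F q w w = 0} + q ^ (2 * (n + 1))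
      = q * Nat.card {w : Fin (n + 1) → F // Cfsg.hermForm (n + 1) F q w w = 0} + q ^ (2 * n) := by
  classical
  have := Fintype.ofFinite F
  set h := Cfsg.hermForm (n + 1) F q with hh
  obtain ⟨θ, hθ⟩ := c.exists_trace_one
  have hK := card_fixed hF c
  -- vectors outside the hyperplane
  set B := {w : Fin (n + 1) → F // h w v ≠ 0} with hB
  set A := {w : Fin (n + 1) → F // h w v ≠ 0 ∧ h w w = 0} with hA
  have hz : ∀ (a : F) (w : Fin (n + 1) → F), h (w + a • v) v = h w v := fun a w => by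
    simp only [hh] at *
    rw [c.add_left, c.smul_left, hvv, mul_zero, add_zero]
  have hN : ∀ (a : F) (w : Fin (n + 1) → F), h (w + a • v) (w + a • v)
      = h w w + (a * c.σ (h w v) + c.σ (a * c.σ (h w v))) := fun a w => by
    simp only [hh] at *
    rw [c.add_left, c.add_right, c.add_right, c.smul_left, c.smul_right, c.smul_right, c.smul_left,
      hvv, c.herm_symm w v, map_mul, c.invol]
    ring
  have e : A × {x : F // c.σ x = x} ≃ B :=
    { toFun := fun p => ⟨p.1.1 + (p.2.1 * θ / c.σ (h p.1.1 v)) • v, by rw [hz]; exact p.1.2.1⟩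
      invFun := fun w => (⟨w.1 + (-(h w.1 w.1) * θ / c.σ (h w.1 v)) • v, by rw [hz]; exact w.2, by
          have hne : c.σ (h w.1 v) ≠ 0 := fun e => w.2 (c.eq_zero e)
          rw [hN, div_mul_cancel₀ _ hne, map_mul, map_neg, c.herm_self]
          linear_combination (-h w.1 w.1) * hθ⟩, ⟨h w.1 w.1, c.herm_self _⟩)
      left_inv := fun p => by
        have hne : c.σ (h p.1.1 v) ≠ 0 := fun e => p.1.2.1 (c.eq_zero e)
        have hk : h (p.1.1 + (p.2.1 * θ / c.σ (h p.1.1 v)) • v)
            (p.1.1 + (p.2.1 * θ / c.σ (h p.1.1 v)) • v) = p.2.1 := by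
          rw [hN, div_mul_cancel₀ _ hne, p.1.2.2, map_mul, p.2.2]
          linear_combination p.2.1 * hθ
        refine Prod.ext (Subtype.ext ?_) (Subtype.ext hk)
        show (p.1.1 + _) + (-(h _ _) * θ / c.σ (h _ v)) • v = p.1.1
        rw [hk, hz, add_assoc, ← add_smul,
          show p.2.1 * θ / c.σ (h p.1.1 v) + -p.2.1 * θ / c.σ (h p.1.1 v) = 0 by ring,
          zero_smul, add_zero]
      right_inv := fun w => Subtype.ext (by
        show (w.1 + _) + (h w.1 w.1 * θ / c.σ (h (w.1 + _) v)) • v = w.1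
        rw [hz, add_assoc, ← add_smul,
          show -(h w.1 w.1) * θ / c.σ (h w.1 v) + h w.1 w.1 * θ / c.σ (h w.1 v) = 0 by ring,
          zero_smul, add_zero]) }
  have hAB : Nat.card A * q = Nat.card B := by
    conv_lhs => rw [← hK]
    rw [← Nat.card_prod, Nat.card_congr e]
  have hker : Nat.card {w : Fin (n + 1) → F // h w v = 0} = q ^ (2 * n) := by
    show Nat.card (LinearMap.ker (c.hl v)) = _
    have hsurj : Function.Surjective (c.hl v) := by
      refine LinearMap.surjective fun h0 => hv (funext fun i => c.eq_zero ?_)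
      have := LinearMap.congr_fun h0 (Pi.single i 1)
      rwa [Conj.hl_apply, c.single_left, LinearMap.zero_apply] at this
    have h1 := LinearMap.finrank_range_add_finrank_ker (c.hl v)
    rw [LinearMap.range_eq_top.2 hsurj, finrank_top, Module.finrank_self, finrank_fin_fun] at h1
    rw [Module.natCard_eq_pow_finrank (K := F), hF, ← pow_mul]
    congr 2
    omega
  have hall : Nat.card B + q ^ (2 * n) = q ^ (2 * (n + 1)) := by
    rw [← hker, ← card_fun_fin hF (n + 1), ← Nat.card_sum, Nat.card_congr (Equiv.sumComm _ _),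
      Nat.card_congr (Equiv.sumCompl fun w : Fin (n + 1) → F => h w v = 0)]
  have hZ : Nat.card {w : Fin (n + 1) → F // h w w = 0}
      = Nat.card A + Nat.card {w : Fin (n + 1) → F // h v w = 0 ∧ h w v = 0 ∧ h w w = 0} := by
    rw [hA, Nat.card_eq_fintype_card, Nat.card_eq_fintype_card, Nat.card_eq_fintype_card,
      Fintype.card_subtype, Fintype.card_subtype, Fintype.card_subtype, ← Finset.card_union_of_disjoint
        (Finset.disjoint_filter.2 fun w _ h1 h2 => h1.1 h2.2.1)]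
    congr 1
    ext w
    simp only [Finset.mem_filter, Finset.mem_univ, true_and, Finset.mem_union]
    constructor
    · intro hw
      by_cases h0 : h w v = 0
      · exact Or.inr ⟨by simp only [hh] at *; rw [c.herm_symm w v, h0, map_zero], h0, hw⟩
      · exact Or.inl ⟨h0, hw⟩
    · rintro (hw | hw)
      · exact hw.2
      · exact hw.2.2
  rw [hZ, Nat.mul_add q (Nat.card A), mul_comm q (Nat.card A), hAB]
  omega

/-- The closure property of a pair. -/
lemma rel_span (c : Conj F q) (v w : Fin n → F) (h1 : Cfsg.hermForm n F q v v = 0)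
    (h2 : Cfsg.hermForm n F q v w = 0) (h3 : Cfsg.hermForm n F q w v = 0)
    (h4 : Cfsg.hermForm n F q w w = 0) :
    ∀ u ∈ (F ∙ v : Submodule F (Fin n → F)) ⊔ (F ∙ w),
      ∀ u' ∈ (F ∙ v : Submodule F (Fin n → F)) ⊔ (F ∙ w), Cfsg.hermForm n F q u u' = 0 := by
  intro u hu u' hu'
  simp only [Submodule.mem_sup, Submodule.mem_span_singleton] at hu hu'
  obtain ⟨_, ⟨a, rfl⟩, _, ⟨b, rfl⟩, rfl⟩ := hu
  obtain ⟨_, ⟨a', rfl⟩, _, ⟨b', rfl⟩, rfl⟩ := hu'
  simp [c.add_left, c.add_right, c.smul_left, c.smul_right, h1, h2, h3, h4]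

/-- Number of totally isotropic lines from the number `k` of lines on a point. -/
theorem lines_eq (hF : Nat.card F = q ^ 2) (n : ℕ) (k N : ℤ)
    (hk : (q : ℤ) * k * ((q : ℤ) ^ 4 - (q : ℤ) ^ 2) + (q : ℤ) ^ 3
      = (-1) ^ (n + 1) * ((q : ℤ) ^ (n + 2) - (q : ℤ) ^ (n + 1)) + (q : ℤ) ^ (2 * n))
    (hN : N * ((q : ℤ) ^ 4 - 1) * q
      = ((q : ℤ) ^ (2 * (n + 1)) + (-1) ^ (n + 1) * ((q : ℤ) ^ (n + 2) - (q : ℤ) ^ (n + 1)) - q) * k) :
    (Nat.card {W : Submodule F (Fin (n + 1) → F) //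
      finrank F W = 2 ∧ ∀ u ∈ W, ∀ v ∈ W, Cfsg.hermForm (n + 1) F q u v = 0} : ℤ) = N := by
  classical
  have := Fintype.ofFinite F
  obtain ⟨c⟩ := exists_conj hF
  have hq := two_le_q hF
  have hq0 : (q : ℤ) ≠ 0 := by exact_mod_cast (show q ≠ 0 by omega)
  have hq2 : q ^ 2 < q ^ 4 := Nat.pow_lt_pow_right (by omega) (by omega)
  have hz := card_herm_zero hF (n + 1)
  have hd : (0 : ℤ) < (q : ℤ) ^ 4 - (q : ℤ) ^ 2 := by
    have : ((q ^ 2 : ℕ) : ℤ) < ((q ^ 4 : ℕ) : ℤ) := by exact_mod_cast hq2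
    push_cast at this
    linarith
  have key : ∀ v : Fin (n + 1) → F, v ≠ 0 → Cfsg.hermForm (n + 1) F q v v = 0 →
      (Nat.card {W : Submodule F (Fin (n + 1) → F) // finrank F W = 2 ∧ v ∈ W ∧
        ∀ u ∈ W, ∀ w ∈ W, Cfsg.hermForm (n + 1) F q u w = 0} : ℤ) = k := by
    intro v hv hvv
    have h1 := CfsgLib.TILines.card_through_mul
      (fun u w : Fin (n + 1) → F => Cfsg.hermForm (n + 1) F q u w = 0)
      (rel_span c) hv hvv
    have h2 := card_iso_perp hF c hv hvv
    rw [hF] at h1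
    have h3 : q ^ 2 ≤ (q ^ 2) ^ 2 := Nat.le_self_pow two_ne_zero _
    generalize Nat.card {W : Submodule F (Fin (n + 1) → F) // finrank F W = 2 ∧ v ∈ W ∧
        ∀ u ∈ W, ∀ w ∈ W, Cfsg.hermForm (n + 1) F q u w = 0} = L at h1 ⊢
    zify [h3] at h1 h2
    have h4 : ((L : ℤ) - k) * ((q : ℤ) * ((q : ℤ) ^ 4 - (q : ℤ) ^ 2)) = 0 := by
      linear_combination (q : ℤ) * h1 + h2 + hz - hk
    rcases mul_eq_zero.1 h4 with h5 | h5
    · exact sub_eq_zero.1 h5
    · exact absurd h5 (mul_ne_zero hq0 hd.ne')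
  obtain ⟨k', hk'⟩ : ∃ k' : ℕ, ∀ v : Fin (n + 1) → F, v ≠ 0 →
      Cfsg.hermForm (n + 1) F q v v = 0 →
      Nat.card {W : Submodule F (Fin (n + 1) → F) // finrank F W = 2 ∧ v ∈ W ∧
        ∀ u ∈ W, ∀ w ∈ W, Cfsg.hermForm (n + 1) F q u w = 0} = k' := by
    refine ⟨k.toNat, fun v hv hvv => ?_⟩
    have := key v hv hvv
    omega
  have h1 := CfsgLib.TILines.card_lines_mul
    (fun u w : Fin (n + 1) → F => Cfsg.hermForm (n + 1) F q u w = 0) k' hk'
  have hI : Nat.card {v : Fin (n + 1) → F // Cfsg.hermForm (n + 1) F q v v = 0}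
      = Nat.card {v : Fin (n + 1) → F // v ≠ 0 ∧ Cfsg.hermForm (n + 1) F q v v = 0} + 1 := by
    rw [Nat.card_eq_fintype_card, Nat.card_eq_fintype_card, Fintype.card_subtype, Fintype.card_subtype]
    have : (Finset.univ.filter fun v : Fin (n + 1) → F => Cfsg.hermForm (n + 1) F q v v = 0)
        = insert 0 (Finset.univ.filter fun v : Fin (n + 1) → F =>
          v ≠ 0 ∧ Cfsg.hermForm (n + 1) F q v v = 0) := by
      ext v
      by_cases hv : v = 0 <;> simp [hv, c.zero_left]
    rw [this, Finset.card_insert_of_notMem (by simp)]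
  have hkk : (Nat.card {v : Fin (n + 1) → F // v ≠ 0 ∧ Cfsg.hermForm (n + 1) F q v v = 0} : ℤ) * k'
      = (Nat.card {v : Fin (n + 1) → F // v ≠ 0 ∧ Cfsg.hermForm (n + 1) F q v v = 0} : ℤ) * k := by
    rcases isEmpty_or_nonempty {v : Fin (n + 1) → F // v ≠ 0 ∧ Cfsg.hermForm (n + 1) F q v v = 0}
      with h | ⟨⟨v, hv, hvv⟩⟩
    · simp
    · have := key v hv hvv
      rw [hk' v hv hvv] at this
      rw [this]
  rw [hF] at h1
  rw [hI] at hz
  have h3 : 1 ≤ (q ^ 2) ^ 2 := Nat.one_le_pow _ _ (Nat.pow_pos (by omega))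
  generalize Nat.card {W : Submodule F (Fin (n + 1) → F) //
      finrank F W = 2 ∧ ∀ u ∈ W, ∀ v ∈ W, Cfsg.hermForm (n + 1) F q u v = 0} = L at h1 ⊢
  zify [h3] at h1 hz
  have h4 : ((L : ℤ) - N) * (((q : ℤ) ^ 4 - 1) * q) = 0 := by
    linear_combination (q : ℤ) * h1 + (q : ℤ) * hkk + k * hz - hN
  rcases mul_eq_zero.1 h4 with h5 | h5
  · exact sub_eq_zero.1 h5
  · have : (1 : ℤ) < (q : ℤ) ^ 4 := by
      have : (2 : ℤ) ≤ q := by exact_mod_cast hq
      exact one_lt_pow₀ (by linarith) (by norm_num)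
    exact absurd h5 (mul_ne_zero (by linarith) hq0)

end CfsgLib.HermLines
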