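/-
The subgroup generated by Siegel transformations is transitive on vectors of a given non-zero norm
and equals the commutator subgroup of the isometry group (2 ≠ 0, finite field, dimension ≥ 5).
-/
import Cfsg.Agent.Lib.Parabolic.OrthReflections

set_option autoImplicit false
set_option linter.unusedSectionVars false

namespace CfsgLib.OrthGen

open Matrix QuadraticMap Module

variable {F : Type*} [Field F] {ι : Type} [Fintype ι] [DecidableEq ι]

/-- Subgroup generated by the Siegel transformations. -/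
def siegelGroup (Q : QuadraticForm F (ι → F)) : Subgroup (Cfsg.isometryGroup F (⇑Q)) :=
  Subgroup.closure (siegelSet Q)

instance siegelGroup_normal (Q : QuadraticForm F (ι → F)) : (siegelGroup Q).Normal := by
  refine ⟨fun n hn g => ?_⟩
  induction hn using Subgroup.closure_induction with
  | mem x hx =>
    obtain ⟨u, v, c, hu, hv, huv, hx⟩ := hx
    rw [eq_siegel_of_mem Q hu hv huv hx, conj_siegel]
    exact Subgroup.subset_closure (siegel_mem_siegelSet Q _ _ _ c)
  | one => rw [mul_one, mul_inv_cancel]; exact one_mem _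
  | mul x y _ _ hx hy =>
    have : g * (x * y) * g⁻¹ = g * x * g⁻¹ * (g * y * g⁻¹) := by group
    rw [this]; exact mul_mem hx hy
  | inv x _ hx =>
    have : g * x⁻¹ * g⁻¹ = (g * x * g⁻¹)⁻¹ := by group
    rw [this]; exact inv_mem hx

theorem siegelGroup_le_commutator (Q : QuadraticForm F (ι → F)) (h2 : (2 : F) ≠ 0)
    (hQ : (QuadraticMap.polarBilin Q).Nondegenerate) :
    siegelGroup Q ≤ commutator (Cfsg.isometryGroup F (⇑Q)) := by
  rw [siegelGroup, Subgroup.closure_le]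
  rintro g ⟨u, v, c, hu, hv, huv, hg⟩
  rw [eq_siegel_of_mem Q hu hv huv hg, SetLike.mem_coe, commutator_eq_closure]
  exact Subgroup.subset_closure (siegel_mem_commutatorSet h2 hQ hu hv huv c)

variable {Q : QuadraticForm F (ι → F)}

/-- `w` is an Eichler parameter for `e`. -/
def HasEichler (Q : QuadraticForm F (ι → F)) (e w : ι → F) : Prop :=
  ∃ g ∈ siegelGroup Q, ∀ x,
    act Q g x = x + pf Q e x • w - pf Q w x • e - (Q w * pf Q e x) • e

lemma hasEichler_singular {e w : ι → F} (he : Q e = 0) (hw : Q w = 0) (hew : pf Q e w = 0) :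
    HasEichler Q e w := by
  refine ⟨siegel Q he hw hew 1, Subgroup.subset_closure (siegel_mem_siegelSet Q he hw hew 1),
    fun x => ?_⟩
  rw [act_siegel, hw]
  module

lemma hasEichler_add {e w₁ w₂ : ι → F} (he : Q e = 0) (h₁ : pf Q e w₁ = 0) (h₂ : pf Q e w₂ = 0)
    (H₁ : HasEichler Q e w₁) (H₂ : HasEichler Q e w₂) : HasEichler Q e (w₁ + w₂) := by
  obtain ⟨g₁, hg₁, a₁⟩ := H₁
  obtain ⟨g₂, hg₂, a₂⟩ := H₂
  refine ⟨g₁ * g₂, mul_mem hg₁ hg₂, fun x => ?_⟩
  rw [act_mul, a₂, a₁]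
  simp only [pf, QuadraticMap.polar_add_right, QuadraticMap.polar_add_left,
    QuadraticMap.polar_sub_right, QuadraticMap.polar_smul_right, smul_eq_mul]
  simp only [← pf.eq_def, h₁, h₂, pf_self, he, pf_comm Q w₁ e, mul_zero, sub_zero, add_zero]
  rw [Q_add]
  module

/-- A hyperbolic pair. -/
structure HypPair (Q : QuadraticForm F (ι → F)) where
  /-- first vector -/
  e : ι → F
  /-- second vector -/
  f : ι → F
  Qe : Q e = 0
  Qf : Q f = 0
  ef : pf Q e f = 1

lemma exists_hypPair [Finite F] (h2 : (2 : F) ≠ 0)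
    (hQ : (QuadraticMap.polarBilin Q).Nondegenerate) (hn : 3 ≤ Fintype.card ι) :
    Nonempty (HypPair Q) := by
  obtain ⟨e, he0, he, -⟩ := exists_singular_orth (Q := Q) h2 (k := 0) Fin.elim0 (by omega)
  obtain ⟨y, hy⟩ := exists_pf_eq_one hQ he0
  refine ⟨⟨e, y - Q y • e, he, ?_, ?_⟩⟩
  · rw [Q_sub, Q_smul, he, pf, QuadraticMap.polar_smul_right, smul_eq_mul, ← pf, pf_comm, hy]
    ring
  · rw [pf, QuadraticMap.polar_sub_right, QuadraticMap.polar_smul_right, smul_eq_mul, ← pf, ← pf,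
      hy, pf_self, he, mul_zero, mul_zero, sub_zero]

/-- The pair with the two vectors swapped. -/
def HypPair.swap (P : HypPair Q) : HypPair Q :=
  ⟨P.f, P.e, P.Qf, P.Qe, by rw [pf_comm]; exact P.ef⟩

/-- Membership in the orthogonal complement of the pair. -/
def HypPair.Orth (P : HypPair Q) (w : ι → F) : Prop := pf Q P.e w = 0 ∧ pf Q P.f w = 0

lemma HypPair.exists_inner (P : HypPair Q) [Finite F] (h2 : (2 : F) ≠ 0)
    (hQ : (QuadraticMap.polarBilin Q).Nondegenerate) (hn : 5 ≤ Fintype.card ι) :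
    ∃ R : HypPair Q, P.Orth R.e ∧ P.Orth R.f := by
  obtain ⟨e₁, he0, he, ho⟩ := exists_singular_orth (Q := Q) h2 ![P.e, P.f] (by omega)
  have oe : pf Q P.e e₁ = 0 := ho 0
  have of : pf Q P.f e₁ = 0 := ho 1
  obtain ⟨y, hy⟩ := exists_pf_eq_one hQ he0
  obtain ⟨z, z1, z2, z3⟩ : ∃ z, pf Q e₁ z = 1 ∧ pf Q P.e z = 0 ∧ pf Q P.f z = 0 := by
    refine ⟨y - pf Q P.f y • P.e - pf Q P.e y • P.f, ?_, ?_, ?_⟩ <;>
      simp only [pf, QuadraticMap.polar_sub_right, QuadraticMap.polar_smul_right, smul_eq_mul] <;>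
      simp only [← pf.eq_def]
    · rw [pf_comm Q e₁ P.e, pf_comm Q e₁ P.f, oe, of, hy]; ring
    · rw [pf_self, P.Qe, P.ef]; ring
    · rw [pf_self, P.Qf, pf_comm Q P.f P.e, P.ef]; ring
  refine ⟨⟨e₁, z - Q z • e₁, he, ?_, ?_⟩, ⟨oe, of⟩, ?_, ?_⟩
  · rw [Q_sub, Q_smul, he, pf, QuadraticMap.polar_smul_right, smul_eq_mul, ← pf, pf_comm, z1]
    ring
  · rw [pf, QuadraticMap.polar_sub_right, QuadraticMap.polar_smul_right, smul_eq_mul, ← pf, ← pf,
      z1, pf_self, he, mul_zero, mul_zero, sub_zero]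
  · change pf Q P.e (z - Q z • e₁) = 0
    rw [pf, QuadraticMap.polar_sub_right, QuadraticMap.polar_smul_right, smul_eq_mul, ← pf, ← pf,
      z2, oe, mul_zero, sub_zero]
  · change pf Q P.f (z - Q z • e₁) = 0
    rw [pf, QuadraticMap.polar_sub_right, QuadraticMap.polar_smul_right, smul_eq_mul, ← pf, ← pf,
      z3, of, mul_zero, sub_zero]

lemma HypPair.Orth.add {P : HypPair Q} {x y : ι → F} (hx : P.Orth x) (hy : P.Orth y) :
    P.Orth (x + y) := by
  constructor <;> rw [pf, QuadraticMap.polar_add_right, ← pf, ← pf] <;>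
    simp [hx.1, hx.2, hy.1, hy.2]

lemma HypPair.Orth.smul {P : HypPair Q} {x : ι → F} (a : F) (hx : P.Orth x) :
    P.Orth (a • x) := by
  constructor <;> rw [pf, QuadraticMap.polar_smul_right, ← pf] <;> simp [hx.1, hx.2]

lemma HypPair.exists_orth_Q (P : HypPair Q) [Finite F] (h2 : (2 : F) ≠ 0)
    (hQ : (QuadraticMap.polarBilin Q).Nondegenerate) (hn : 5 ≤ Fintype.card ι) (c : F) :
    ∃ w, P.Orth w ∧ Q w = c := by
  obtain ⟨R, he, hf⟩ := P.exists_inner h2 hQ hn
  refine ⟨c • R.e + (1 : F) • R.f, (he.smul c).add (hf.smul 1), ?_⟩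
  rw [Q_smul_add_smul, R.Qe, R.Qf, R.ef]; ring

lemma HypPair.hasEichler (P : HypPair Q) [Finite F] (h2 : (2 : F) ≠ 0)
    (hQ : (QuadraticMap.polarBilin Q).Nondegenerate) (hn : 5 ≤ Fintype.card ι) {w : ι → F}
    (hw : P.Orth w) : HasEichler Q P.e w := by
  obtain ⟨R, he, hf⟩ := P.exists_inner h2 hQ hn
  obtain ⟨a, ha⟩ : ∃ a, a = pf Q R.f w := ⟨_, rfl⟩
  obtain ⟨b, hb⟩ : ∃ b, b = pf Q R.e w := ⟨_, rfl⟩
  obtain ⟨x, hx⟩ : ∃ x, x = w + ((-a) • R.e + (-b) • R.f) := ⟨_, rfl⟩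
  have xo : P.Orth x := hx ▸ hw.add ((he.smul _).add (hf.smul _))
  have x1 : pf Q R.e x = 0 := by
    rw [hx]
    simp only [pf, QuadraticMap.polar_add_right, QuadraticMap.polar_smul_right, smul_eq_mul]
    simp only [← pf.eq_def, pf_self, R.Qe, R.ef, ← hb]; ring
  have x2 : pf Q R.f x = 0 := by
    rw [hx]
    simp only [pf, QuadraticMap.polar_add_right, QuadraticMap.polar_smul_right, smul_eq_mul]
    simp only [← pf.eq_def, pf_self, R.Qf, pf_comm Q R.f R.e, R.ef, ← ha]; ring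
  obtain ⟨s, hs⟩ : ∃ s, s = x + ((-Q x) • R.e + (1 : F) • R.f) := ⟨_, rfl⟩
  have so : P.Orth s := hs ▸ xo.add ((he.smul _).add (hf.smul _))
  have s0 : Q s = 0 := by
    rw [hs, Q_add, Q_smul_add_smul, R.Qe, R.Qf, R.ef, pf, QuadraticMap.polar_add_right,
      QuadraticMap.polar_smul_right, QuadraticMap.polar_smul_right, ← pf, ← pf,
      pf_comm Q x R.e, pf_comm Q x R.f, x1, x2]
    simp
  have hwsum : w = s + ((a + Q x) • R.e + (b - 1) • R.f) := by rw [hs, hx]; module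
  rw [hwsum]
  refine hasEichler_add P.Qe so.1 ((he.smul _).add (hf.smul _)).1
    (hasEichler_singular P.Qe s0 so.1) ?_
  exact hasEichler_add P.Qe (he.smul _).1 (hf.smul _).1
    (hasEichler_singular P.Qe (by rw [Q_smul, R.Qe, mul_zero]) (he.smul _).1)
    (hasEichler_singular P.Qe (by rw [Q_smul, R.Qf, mul_zero]) (hf.smul _).1)

lemma HypPair.act_eichler (P : HypPair Q) {g : Cfsg.isometryGroup F (⇑Q)} {w : ι → F}
    (hw : P.Orth w)
    (hg : ∀ x, act Q g x = x + pf Q P.e x • w - pf Q w x • P.e - (Q w * pf Q P.e x) • P.e)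
    (a b : F) {z : ι → F} (hz : P.Orth z) :
    act Q g (a • P.e + b • P.f + z) =
      (a - pf Q w z - Q w * b) • P.e + b • P.f + (z + b • w) := by
  rw [hg]
  simp only [pf, QuadraticMap.polar_add_right, QuadraticMap.polar_smul_right, smul_eq_mul]
  simp only [← pf.eq_def, pf_self, P.Qe, P.ef, hz.1, pf_comm Q w P.e, pf_comm Q w P.f, hw.1, hw.2]
  module

lemma HypPair.exists_move (P : HypPair Q) [Finite F] (h2 : (2 : F) ≠ 0)
    (hQ : (QuadraticMap.polarBilin Q).Nondegenerate) (hn : 5 ≤ Fintype.card ι) (v : ι → F)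
    (hv : Q v ≠ 0) : ∃ g ∈ siegelGroup Q, act Q g v = Q v • P.e + P.f := by
  obtain ⟨c, hc⟩ : ∃ c, c = Q v := ⟨_, rfl⟩
  rw [← hc]
  rw [← hc] at hv
  -- step 2: clear the middle component
  have step2 : ∀ (a b : F) (z : ι → F), P.Orth z → b ≠ 0 →
      ∃ g ∈ siegelGroup Q, ∃ a' : F, act Q g (a • P.e + b • P.f + z) = a' • P.e + b • P.f := by
    intro a b z hz hb
    obtain ⟨g, hgE, hg⟩ := P.hasEichler h2 hQ hn (hz.smul (-b⁻¹))
    refine ⟨g, hgE, a - pf Q ((-b⁻¹) • z) z - Q ((-b⁻¹) • z) * b,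
      (P.act_eichler (hz.smul _) hg a b hz).trans ?_⟩
    rw [smul_smul, show b * -b⁻¹ = -1 by field_simp, neg_one_smul, add_neg_cancel, add_zero]
  obtain ⟨a, ha⟩ : ∃ a, a = pf Q P.f v := ⟨_, rfl⟩
  obtain ⟨b, hb⟩ : ∃ b, b = pf Q P.e v := ⟨_, rfl⟩
  obtain ⟨z, hz⟩ : ∃ z, z = v + ((-a) • P.e + (-b) • P.f) := ⟨_, rfl⟩
  have hzo : P.Orth z := by
    constructor <;>
      rw [hz] <;>
      simp only [pf, QuadraticMap.polar_add_right, QuadraticMap.polar_smul_right, smul_eq_mul] <;>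
      simp only [← pf.eq_def, pf_self, P.Qe, P.Qf, pf_comm Q P.f P.e, P.ef, ← ha, ← hb] <;> ring
  have hv' : v = a • P.e + b • P.f + z := by rw [hz]; module
  have hQdec : ∀ (a b : F) (z : ι → F), P.Orth z →
      Q (a • P.e + b • P.f + z) = a * b + Q z := by
    intro a b z hz
    rw [Q_add, Q_smul_add_smul, P.Qe, P.Qf, P.ef, pf, QuadraticMap.polar_add_left,
      QuadraticMap.polar_smul_left, QuadraticMap.polar_smul_left, ← pf, ← pf, hz.1, hz.2]
    simp
  -- step 1: make the f-coefficient non-zero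
  obtain ⟨g₁, hg₁, a₁, b₁, z₁, hb₁, hz₁, e₁⟩ : ∃ g ∈ siegelGroup Q, ∃ (a' b' : F) (z' : ι → F),
      b' ≠ 0 ∧ P.Orth z' ∧ act Q g v = a' • P.e + b' • P.f + z' := by
    by_cases hb0 : b = 0
    · have hQz : Q z = c := by
        have := hQdec a b z hzo
        rw [← hv', hb0, mul_zero, zero_add, ← hc] at this
        exact this.symm
      obtain ⟨w, hwo, hwz⟩ : ∃ w, P.Orth w ∧ pf Q w z + Q w * a ≠ 0 := by
        by_cases h : (2 : F) + a = 0
        · refine ⟨(-1 : F) • z, hzo.smul _, ?_⟩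
          rw [pf, QuadraticMap.polar_smul_left, ← pf, pf_self, Q_smul, hQz, smul_eq_mul]
          intro h'
          have h'' : c * (a - 2) = 0 := by linear_combination h'
          have h3 := (mul_eq_zero.mp h'').resolve_left hv
          have h4 : (2 : F) * 2 = 0 := by linear_combination h - h3
          exact h2 (mul_self_eq_zero.mp h4)
        · refine ⟨z, hzo, ?_⟩
          rw [pf_self, hQz]
          intro h'
          exact h ((mul_eq_zero.mp (show c * (2 + a) = 0 by linear_combination h')).resolve_left hv)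
      obtain ⟨g, hgE, hg⟩ := P.swap.hasEichler h2 hQ hn (w := w) ⟨hwo.2, hwo.1⟩
      refine ⟨g, hgE, a, b - pf Q w z - Q w * a, z + a • w, ?_, hzo.add (hwo.smul _), ?_⟩
      · rw [hb0, zero_sub, ← neg_add', neg_ne_zero]; exact hwz
      · have := P.swap.act_eichler ⟨hwo.2, hwo.1⟩ hg b a (z := z) ⟨hzo.2, hzo.1⟩
        rw [hv', add_comm (a • P.e) (b • P.f)]
        refine this.trans ?_
        simp only [HypPair.swap]
        rw [add_comm ((b - pf Q w z - Q w * a) • P.f) (a • P.e)]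
    · exact ⟨1, one_mem _, a, b, z, hb0, hzo, by rw [act_one, ← hv']⟩
  obtain ⟨g₂, hg₂, a₂, e₂⟩ := step2 a₁ b₁ z₁ hz₁ hb₁
  have hzero : P.Orth 0 := by
    constructor <;> simp [pf, QuadraticMap.polar_zero_right]
  have ha₂ : a₂ * b₁ = c := by
    have h0 := hQdec a₂ b₁ 0 hzero
    rw [QuadraticMap.map_zero, add_zero, add_zero] at h0
    rw [← h0, ← e₂, ← e₁, Q_act, Q_act, ← hc]
  have ha₂0 : a₂ ≠ 0 := fun h => hv (by rw [← ha₂, h, zero_mul])
  -- step 3: normalise the f-coefficient to one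
  obtain ⟨w, hwo, hQw⟩ := P.exists_orth_Q h2 hQ hn ((b₁ - 1) / a₂)
  obtain ⟨g₃, hg₃, e₃⟩ := P.swap.hasEichler h2 hQ hn (w := w) ⟨hwo.2, hwo.1⟩
  have h3 : act Q g₃ (a₂ • P.e + b₁ • P.f) = a₂ • P.e + (1 : F) • P.f + a₂ • w := by
    have := P.swap.act_eichler ⟨hwo.2, hwo.1⟩ e₃ b₁ a₂ (z := 0) ⟨hzero.2, hzero.1⟩
    simp only [HypPair.swap] at this
    rw [add_zero, zero_add, add_comm (b₁ • P.f)] at this
    rw [this, hQw, pf, QuadraticMap.polar_zero_right, sub_zero, div_mul_cancel₀ _ ha₂0,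
      sub_sub_cancel]
    module
  obtain ⟨g₄, hg₄, a₄, e₄⟩ := step2 a₂ 1 _ (hwo.smul a₂) one_ne_zero
  refine ⟨g₄ * g₃ * g₂ * g₁, mul_mem (mul_mem (mul_mem hg₄ hg₃) hg₂) hg₁, ?_⟩
  have hend : act Q (g₄ * g₃ * g₂ * g₁) v = a₄ • P.e + (1 : F) • P.f := by
    rw [act_mul, act_mul, act_mul, e₁, e₂, h3, e₄]
  have ha₄ : a₄ = c := by
    have h0 := hQdec a₄ 1 0 hzero
    rw [QuadraticMap.map_zero, add_zero, add_zero, ← hend, Q_act, mul_one, ← hc] at h0
    exact h0.symm
  rw [hend, ha₄, one_smul]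

/-- Equal non-zero norms: conjugate reflections modulo the Siegel group. -/
lemma mk_refl_eq_of_act {v w : ι → F} (hv : Q v ≠ 0) (hw : Q w ≠ 0)
    {g : Cfsg.isometryGroup F (⇑Q)} (hg : g ∈ siegelGroup Q) (hgv : act Q g v = w) :
    QuotientGroup.mk' (siegelGroup Q) (refl Q hv) = QuotientGroup.mk' (siegelGroup Q) (refl Q hw) := by
  subst hgv
  rw [← conj_refl Q g hv, map_mul, map_mul, map_inv,
    show QuotientGroup.mk' (siegelGroup Q) g = 1 from (QuotientGroup.eq_one_iff g).mpr hg,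
    one_mul, inv_one, mul_one]

/-- `Ω` is generated by Siegel transformations. -/
theorem commutator_eq_siegelGroup [Finite F] (h2 : (2 : F) ≠ 0)
    (hQ : (QuadraticMap.polarBilin Q).Nondegenerate) (hn : 5 ≤ Fintype.card ι) :
    commutator (Cfsg.isometryGroup F (⇑Q)) = siegelGroup Q := by
  refine le_antisymm ?_ (siegelGroup_le_commutator Q h2 hQ)
  obtain ⟨P⟩ := exists_hypPair (Q := Q) h2 hQ (by omega)
  have hcomm : ∀ {v w : ι → F} (hv : Q v ≠ 0) (hw : Q w ≠ 0),
      Commute (QuotientGroup.mk' (siegelGroup Q) (refl Q hv))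
        (QuotientGroup.mk' (siegelGroup Q) (refl Q hw)) := by
    intro v w hv hw
    obtain ⟨g, hg, hgv⟩ := P.exists_move h2 hQ hn v hv
    obtain ⟨w', hw'o, hw'q⟩ := P.exists_orth_Q h2 hQ hn (Q w)
    obtain ⟨h, hh, hhw⟩ := P.exists_move h2 hQ hn w hw
    obtain ⟨k, hk, hkw⟩ := P.exists_move h2 hQ hn w' (by rw [hw'q]; exact hw)
    have hp : Q (Q v • P.e + P.f) ≠ 0 := by rw [← hgv, Q_act]; exact hv
    have hw'0 : Q w' ≠ 0 := by rw [hw'q]; exact hw
    have e1 : QuotientGroup.mk' (siegelGroup Q) (refl Q hv) =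
        QuotientGroup.mk' (siegelGroup Q) (refl Q hp) := mk_refl_eq_of_act hv hp hg hgv
    have e2 : QuotientGroup.mk' (siegelGroup Q) (refl Q hw) =
        QuotientGroup.mk' (siegelGroup Q) (refl Q hw'0) := by
      refine mk_refl_eq_of_act hw hw'0 (mul_mem (inv_mem hk) hh) ?_
      rw [act_mul, hhw, ← hw'q, ← hkw, act_inv_act]
    rw [e1, e2]
    refine Commute.map ?_ _
    have horth : pf Q (Q v • P.e + P.f) w' = 0 := by
      rw [pf, QuadraticMap.polar_add_left, QuadraticMap.polar_smul_left, ← pf, ← pf, hw'o.1,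
        hw'o.2, smul_zero, add_zero]
    have hconj := conj_refl Q (refl Q hp) hw'0
    simp only [act_refl_of_orth Q hp horth] at hconj
    exact mul_inv_eq_iff_eq_mul.mp hconj
  have hgen := closure_reflSet (Q := Q) h2 hQ
  have key : ∀ x y : Cfsg.isometryGroup F (⇑Q),
      Commute (QuotientGroup.mk' (siegelGroup Q) x) (QuotientGroup.mk' (siegelGroup Q) y) := by
    intro x y
    have hx : x ∈ Subgroup.closure (reflSet Q) := hgen ▸ Subgroup.mem_top x
    have hy : y ∈ Subgroup.closure (reflSet Q) := hgen ▸ Subgroup.mem_top y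
    induction hx, hy using Subgroup.closure_induction₂ with
    | mem x y hx hy =>
      obtain ⟨v, hv, rfl⟩ := hx
      obtain ⟨w, hw, rfl⟩ := hy
      exact hcomm hv hw
    | one_left x _ => rw [map_one]; exact Commute.one_left _
    | one_right x _ => rw [map_one]; exact Commute.one_right _
    | mul_left x y z _ _ _ h₁ h₂ => rw [map_mul]; exact Commute.mul_left h₁ h₂
    | mul_right x y z _ _ _ h₁ h₂ => rw [map_mul]; exact Commute.mul_right h₁ h₂
    | inv_left x y _ _ h => rw [map_inv]; exact Commute.inv_left h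
    | inv_right x y _ _ h => rw [map_inv]; exact Commute.inv_right h
  rw [commutator_eq_closure, Subgroup.closure_le]
  rintro _ ⟨x, y, rfl⟩
  rw [SetLike.mem_coe, ← QuotientGroup.eq_one_iff, ← QuotientGroup.mk'_apply, map_commutatorElement]
  exact commutatorElement_eq_one_iff_commute.mpr (key x y)

end CfsgLib.OrthGen
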