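/-
In odd dimension `2 m + 1` the simple orthogonal group has at least `m` classes of involutions.
-/
import Mathlib
import Cfsg.Agent.Lib.ClassicalForms.Ortho.Simple
import Cfsg.Agent.Lib.ClassicalForms.Ortho.Generation
import Cfsg.Agent.Lib.Forms.SymmOrtho

set_option autoImplicit false
set_option linter.unusedSectionVars false

namespace CfsgLib.POmegaInv

open Module QuadraticMap CfsgLib.ClassicalForms
open scoped commutatorElement

variable {F V : Type*} [Field F] [Finite F] [AddCommGroup V] [Module F V] [FiniteDimensional F V]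
  {Q : QuadraticForm F V}

/-- Vectors pairwise orthogonal, all of one norm, completed to a basis by one more vector. -/
structure Frame (Q : QuadraticForm F V) (m : ℕ) where
  /-- the basis -/
  b : Basis (Fin (2 * m + 1)) F V
  orth' : ∀ i j, i ≠ j → polar Q (b i) (b j) = 0
  ne : ∀ i, Q (b i) ≠ 0
  same : ∀ i j, i ≠ Fin.last (2 * m) → j ≠ Fin.last (2 * m) → Q (b i) = Q (b j)

lemma exists_frame (h2 : (2 : F) ≠ 0) (hQ : Nondeg Q) {m : ℕ} (hn : finrank F V = 2 * m + 1) :
    Nonempty (Frame Q m) := by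
  obtain ⟨α, hα⟩ : ∃ a : F, ¬IsSquare a := by
    haveI := Fintype.ofFinite F
    exact FiniteField.exists_nonsquare fun h => h2 (by
      have := ringChar.Nat.cast_ringChar (R := F); rw [h] at this; exact_mod_cast this)
  obtain ⟨b, bo, b1, bl⟩ := CfsgLib.Forms.exists_orthogonal_basis_one h2 (QuadraticMap.polarBilin Q)
    ⟨fun x y => polar_comm _ x y⟩ (nondeg_iff_polarBilin.mpr hQ) hn α hα
  have hne : ∀ i, Q (b i) ≠ 0 := fun i h0 => by
    have h : polar Q (b i) (b i) = 0 := by rw [polar_self_mul, h0, mul_zero]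
    by_cases hi : i = Fin.last (2 * m)
    · subst hi
      rcases bl with e | e <;> rw [polarBilin_apply_apply, h] at e
      · exact zero_ne_one e
      · exact hα (e ▸ IsSquare.zero)
    · have e := b1 i hi
      rw [polarBilin_apply_apply, h] at e
      exact zero_ne_one e
  refine ⟨⟨b, bo, hne, fun i j hi hj => mul_left_cancel₀ h2 ?_⟩⟩
  rw [← polar_self_mul, ← polar_self_mul, ← polarBilin_apply_apply, ← polarBilin_apply_apply,
    b1 i hi, b1 j hj]

/-- A product of two reflections of equal norm lies in the commutator subgroup. -/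
lemma refl_mul_refl_mem (h2 : (2 : F) ≠ 0) {a b : V} (ha : Q a ≠ 0) (hb : Q b ≠ 0)
    (hab : Q a = Q b) : refl Q a ha * refl Q b hb ∈ commutator (orth Q) := by
  obtain ⟨g, hg⟩ : ∃ g : orth Q, g * refl Q b hb * g⁻¹ = refl Q a ha := by
    by_cases h : Q (b - a) = 0
    · have hs : Q (b - -a) ≠ 0 := by
        intro h'
        rw [map_sub_eq, QuadraticMap.map_neg, polar_neg_right] at h'
        rw [map_sub_eq] at h
        have h4 : (2 : F) * 2 * Q a = 0 := by linear_combination h + h' + 2 * hab
        exact ha ((mul_eq_zero.mp h4).resolve_left (mul_ne_zero h2 h2))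
      refine ⟨refl Q _ hs, ?_⟩
      rw [conj_refl, refl_congr (refl_sub_apply (by rw [QuadraticMap.map_neg, hab]) hs)]
      exact orth_ext fun x => by simp [refl_apply, polar_neg_right]
    · refine ⟨refl Q _ h, ?_⟩
      rw [conj_refl]
      exact refl_congr (refl_sub_apply hab.symm h) _
  have : refl Q a ha * refl Q b hb = ⁅g, refl Q b hb⁆ := by
    rw [commutatorElement_def, hg, refl_inv]
  rw [this]
  exact Subgroup.commutator_mem_commutator (Subgroup.mem_top _) (Subgroup.mem_top _)

/-- Elements of the commutator subgroup negating the first `2 j` frame vectors. -/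
lemma exists_negate (h2 : (2 : F) ≠ 0) {m : ℕ} (R : Frame Q m) (j : ℕ) (hj : j ≤ m) :
    ∃ g : orth Q, g ∈ commutator (orth Q) ∧
      ∀ i, (g : V ≃ₗ[F] V) (R.b i) = if (i : ℕ) < 2 * j then -R.b i else R.b i := by
  induction j with
  | zero => exact ⟨1, one_mem _, fun i => by simp [orth_one_apply]⟩
  | succ j ih =>
    obtain ⟨g, hg, hgi⟩ := ih (by omega)
    obtain ⟨p, hp⟩ : ∃ p : Fin (2 * m + 1), (p : ℕ) = 2 * j := ⟨⟨2 * j, by omega⟩, rfl⟩
    obtain ⟨q, hq⟩ : ∃ q : Fin (2 * m + 1), (q : ℕ) = 2 * j + 1 := ⟨⟨2 * j + 1, by omega⟩, rfl⟩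
    have hlast : ∀ r : Fin (2 * m + 1), (r : ℕ) < 2 * m → r ≠ Fin.last (2 * m) := fun r hr h => by
      rw [h] at hr; simp at hr
    refine ⟨g * (refl Q _ (R.ne p) * refl Q _ (R.ne q)), mul_mem hg (refl_mul_refl_mem h2 _ _
      (R.same p q (hlast p (by omega)) (hlast q (by omega)))), fun i => ?_⟩
    rw [orth_mul_apply, orth_mul_apply]
    by_cases hiq : i = q
    · subst hiq
      rw [refl_self, map_neg, refl_fix (R.ne p) (R.orth' _ _ (fun h => by rw [h] at hq; omega)),
        map_neg, hgi, if_neg (by omega), if_pos (by omega)]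
    · rw [refl_fix (R.ne q) (R.orth' i q hiq)]
      by_cases hip : i = p
      · subst hip
        rw [refl_self, map_neg, hgi, if_neg (by omega), if_pos (by omega)]
      · rw [refl_fix (R.ne p) (R.orth' i p hip), hgi]
        have hiq' : (i : ℕ) ≠ 2 * j + 1 := fun h => hiq (Fin.ext (h.trans hq.symm))
        have hip' : (i : ℕ) ≠ 2 * j := fun h => hip (Fin.ext (h.trans hp.symm))
        by_cases hlt : (i : ℕ) < 2 * j
        · rw [if_pos hlt, if_pos (by omega)]
        · rw [if_neg hlt, if_neg (by omega)]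

/-- Rank of `g - c`. -/
noncomputable def shiftRank (g : orth Q) (c : F) : ℕ :=
  finrank F (LinearMap.range ((g : V ≃ₗ[F] V).toLinearMap - c • LinearMap.id))

lemma shiftRank_conj (k g : orth Q) (c : F) : shiftRank (k * g * k⁻¹) c = shiftRank g c := by
  unfold shiftRank
  have h : ((k * g * k⁻¹ : orth Q) : V ≃ₗ[F] V).toLinearMap - c • LinearMap.id =
      (k : V ≃ₗ[F] V).toLinearMap ∘ₗ ((g : V ≃ₗ[F] V).toLinearMap - c • LinearMap.id) ∘ₗ
        ((k⁻¹ : orth Q) : V ≃ₗ[F] V).toLinearMap := by
    refine LinearMap.ext fun v => ?_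
    simp only [LinearMap.sub_apply, LinearMap.smul_apply, LinearMap.id_apply, LinearMap.comp_apply,
      LinearEquiv.coe_coe, orth_mul_apply, map_sub, map_smul, orth_apply_inv]
  rw [h, LinearMap.range_comp,
    LinearMap.range_comp_of_range_eq_top _ (LinearEquiv.range ((k⁻¹ : orth Q) : V ≃ₗ[F] V))]
  exact LinearEquiv.finrank_map_eq _ _

lemma shiftRank_negate (h2 : (2 : F) ≠ 0) {m : ℕ} (R : Frame Q m) {g : orth Q} {j : ℕ}
    (hj : j ≤ m) (hg : ∀ i, (g : V ≃ₗ[F] V) (R.b i) = if (i : ℕ) < 2 * j then -R.b i else R.b i) :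
    shiftRank g 1 = 2 * j ∧ shiftRank g (-1) = 2 * m + 1 - 2 * j := by
  classical
  have key : ∀ (c : F) (S : Finset (Fin (2 * m + 1))),
      (∀ i, ∃ t : F, (g : V ≃ₗ[F] V) (R.b i) - c • R.b i = t • R.b i ∧ (t ≠ 0 ↔ i ∈ S)) →
      shiftRank g c = S.card := by
    intro c S h
    choose t ht htS using h
    have hr : LinearMap.range ((g : V ≃ₗ[F] V).toLinearMap - c • LinearMap.id) =
        Submodule.span F (Set.range fun i : S => R.b i) := by
      apply le_antisymm
      · rintro _ ⟨x, rfl⟩
        rw [← R.b.sum_repr x, map_sum]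
        refine Submodule.sum_mem _ fun i _ => ?_
        rw [map_smul]
        refine Submodule.smul_mem _ _ ?_
        simp only [LinearMap.sub_apply, LinearMap.smul_apply, LinearMap.id_apply, LinearEquiv.coe_coe, ht]
        by_cases hi : t i = 0
        · simp [hi]
        · exact Submodule.smul_mem _ _ (Submodule.subset_span ⟨⟨i, (htS i).mp hi⟩, rfl⟩)
      · rw [Submodule.span_le]
        rintro _ ⟨⟨i, hi⟩, rfl⟩
        refine ⟨(t i)⁻¹ • R.b i, ?_⟩
        simp only [map_smul, LinearMap.sub_apply, LinearMap.smul_apply, LinearMap.id_apply,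
          LinearEquiv.coe_coe, ht, smul_smul, inv_mul_cancel₀ ((htS i).mpr hi), one_smul]
    rw [shiftRank, hr, finrank_span_eq_card]
    · exact Fintype.card_coe S
    · exact R.b.linearIndependent.comp (fun i : S => (i : Fin (2 * m + 1))) Subtype.val_injective
  have hneg2 : (-2 : F) ≠ 0 := neg_ne_zero.mpr h2
  have hcard : (Finset.univ.filter fun i : Fin (2 * m + 1) => (i : ℕ) < 2 * j).card = 2 * j := by
    rw [← Fintype.card_subtype]
    calc Fintype.card {i : Fin (2 * m + 1) // (i : ℕ) < 2 * j}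
        = Fintype.card (Fin (2 * j)) := Fintype.card_congr
          { toFun := fun i => ⟨i.1, i.2⟩
            invFun := fun i => ⟨⟨i, by omega⟩, i.2⟩
            left_inv := fun i => rfl
            right_inv := fun i => rfl }
      _ = 2 * j := Fintype.card_fin _
  refine ⟨?_, ?_⟩
  · rw [key 1 (Finset.univ.filter fun i : Fin (2 * m + 1) => (i : ℕ) < 2 * j), hcard]
    intro i
    by_cases h : (i : ℕ) < 2 * j
    · exact ⟨-2, by rw [hg, if_pos h]; module, by simp [hneg2, h]⟩
    · exact ⟨0, by rw [hg, if_neg h]; module, by simp [h]⟩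
  · rw [key (-1) (Finset.univ.filter fun i : Fin (2 * m + 1) => (i : ℕ) < 2 * j)ᶜ]
    · rw [Finset.card_compl, hcard, Fintype.card_fin]
    intro i
    by_cases h : (i : ℕ) < 2 * j
    · exact ⟨0, by rw [hg, if_pos h]; module, by simp [h]⟩
    · exact ⟨2, by rw [hg, if_neg h]; module, by simp [h2]; omega⟩

lemma shiftRank_scalar_mul {g z : orth Q} {s c : F} (hs : s * s = 1)
    (hz : ∀ v, (z : V ≃ₗ[F] V) v = s • v) : shiftRank (g * z) c = shiftRank g (s * c) := by
  have hs0 : s ≠ 0 := fun h => by rw [h, mul_zero] at hs; exact zero_ne_one hs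
  unfold shiftRank
  have h : ((g * z : orth Q) : V ≃ₗ[F] V).toLinearMap - c • LinearMap.id =
      s • ((g : V ≃ₗ[F] V).toLinearMap - (s * c) • LinearMap.id) := by
    refine LinearMap.ext fun v => ?_
    simp only [LinearMap.sub_apply, LinearMap.smul_apply, LinearMap.id_apply, LinearEquiv.coe_coe,
      orth_mul_apply, hz, map_smul, smul_sub, smul_smul, ← mul_assoc, hs, one_mul]
  rw [h, LinearMap.range_smul _ _ hs0]

/-- At least `m` classes of involutions. -/
theorem exists_involutions (h2 : (2 : F) ≠ 0) (hQ : Nondeg Q) {m : ℕ} (hm : 2 ≤ m)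
    (hn : finrank F V = 2 * m + 1) (hc : commutator (orth Q) = siegelGroup Q) :
    ∃ x : Fin m → siegelGroup Q ⧸ Subgroup.center (siegelGroup Q),
      (∀ i, orderOf (x i) = 2) ∧ ∀ i j, IsConj (x i) (x j) → i = j := by
  obtain ⟨R⟩ := exists_frame h2 hQ hn
  have hex : ∀ i : Fin m, ∃ g : siegelGroup Q, ∀ t, ((g : orth Q) : V ≃ₗ[F] V) (R.b t) =
      if (t : ℕ) < 2 * (i.val + 1) then -R.b t else R.b t := fun i => by
    obtain ⟨g, hg, hgt⟩ := exists_negate h2 R (i.val + 1) i.2
    exact ⟨⟨g, hc ▸ hg⟩, hgt⟩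
  choose g hg using hex
  have hcentral : ∀ z : siegelGroup Q, z ∈ Subgroup.center (siegelGroup Q) →
      ∃ s : F, s * s = 1 ∧ ∀ v, ((z : orth Q) : V ≃ₗ[F] V) v = s • v := fun z hz =>
    eq_smul_of_centralizes hQ (by omega) _ fun u hu =>
      (congrArg Subtype.val (Subgroup.mem_center_iff.mp hz ⟨u, hu⟩)).symm
  refine ⟨fun i => QuotientGroup.mk' _ (g i), fun i => ?_, fun i j hij => ?_⟩
  · beta_reduce
    refine orderOf_eq_prime ?_ ?_
    · have hsq : g i * g i = 1 := by
        apply Subtype.ext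
        refine orth_ext fun v => ?_
        have h : ((g i : orth Q) : V ≃ₗ[F] V).toLinearMap ∘ₗ ((g i : orth Q) : V ≃ₗ[F] V).toLinearMap =
            LinearMap.id := by
          refine R.b.ext fun t => ?_
          simp only [LinearMap.comp_apply, LinearEquiv.coe_coe, LinearMap.id_apply, hg]
          split_ifs with h
          · rw [map_neg, hg, if_pos h, neg_neg]
          · rw [hg, if_neg h]
        rw [Subgroup.coe_mul, orth_mul_apply, OneMemClass.coe_one, orth_one_apply]
        exact LinearMap.congr_fun h v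
      rw [pow_two, ← map_mul, hsq, map_one]
    · intro h1
      rw [QuotientGroup.mk'_apply, QuotientGroup.eq_one_iff] at h1
      obtain ⟨s, -, hs⟩ := hcentral _ h1
      have e0 := hs (R.b 0)
      have el := hs (R.b (Fin.last (2 * m)))
      rw [hg, if_pos (by simp)] at e0
      rw [hg, if_neg (by simp only [Fin.val_last]; omega)] at el
      have a : s = -1 := smul_left_injective F (R.b.ne_zero 0) (by simp only [← e0, neg_one_smul])
      have b : s = 1 := smul_left_injective F (R.b.ne_zero (Fin.last (2 * m)))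
        (by simp only [← el, one_smul])
      exact h2 (by linear_combination (a.symm.trans b).symm)
  · beta_reduce at hij
    obtain ⟨k, hk⟩ := isConj_iff.mp hij
    obtain ⟨k, rfl⟩ := QuotientGroup.mk'_surjective _ k
    simp only [← map_inv, ← map_mul, QuotientGroup.mk'_apply] at hk
    obtain ⟨z, hzc, hz⟩ : ∃ z ∈ Subgroup.center (siegelGroup Q), k * g i * k⁻¹ * z = g j :=
      ⟨(k * g i * k⁻¹)⁻¹ * g j, QuotientGroup.eq.mp hk, by group⟩
    obtain ⟨s, hs, hzs⟩ := hcentral z hzc
    have e : shiftRank (g j : orth Q) 1 = shiftRank (g i : orth Q) (s * 1) := by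
      rw [← hz, Subgroup.coe_mul, shiftRank_scalar_mul hs hzs, Subgroup.coe_mul, Subgroup.coe_mul,
        Subgroup.coe_inv, shiftRank_conj]
    rw [mul_one] at e
    obtain ⟨ri, ri'⟩ := shiftRank_negate h2 R i.2 (hg i)
    obtain ⟨rj, -⟩ := shiftRank_negate h2 R j.2 (hg j)
    apply Fin.ext
    rcases mul_self_eq_one_iff.mp hs with rfl | rfl
    · omega
    · have := i.2; omega

end CfsgLib.POmegaInv
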