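/-
The involutions of `PSp (2 m, F)`, `2 ≠ 0`: they fall into at most `m / 2 + 1` classes.
-/
import Cfsg.Prelude.Def_Classical
import Cfsg.Agent.Lib.Omega.SymplecticInvolution
import Cfsg.Agent.Lib.Forms.SympMatrix
import Cfsg.Agent.Lib.Forms.Symplectic
import Cfsg.Agent.Lib.Forms.OddFinite
import Cfsg.Agent.Lib.CharDegrees.SpElements

set_option autoImplicit false
set_option linter.unusedSectionVars false

namespace CfsgLib.PSpInv

open Matrix Module

variable {F : Type*} [Field F] {m : ℕ}

local notation "VV" => Fin m ⊕ Fin m → F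
local notation "SP" => Matrix.symplecticGroup (Fin m) F
local notation "BB" => CfsgLib.Omega.sympBilin m F

/-- The linear map of a symplectic matrix. -/
def lin (A : SP) : VV →ₗ[F] VV := Matrix.mulVecLin (A : Matrix (Fin m ⊕ Fin m) (Fin m ⊕ Fin m) F)

lemma lin_form (A : SP) (u v : VV) : BB (lin A u) (lin A v) = BB u v := by
  rw [CfsgLib.Omega.sympBilin_apply, CfsgLib.Omega.sympBilin_apply]
  exact CfsgLib.Omega.sympForm_mulVec_of_mem A.2 u v

lemma lin_mul (A B : SP) (v : VV) : lin (A * B) v = lin A (lin B v) := by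
  simp [lin, Matrix.mulVec_mulVec]

lemma lin_ext {A B : SP} (h : ∀ v, lin A v = lin B v) : A = B :=
  Subtype.ext (Matrix.ext_of_mulVec_single fun i => h _)

/-- An isometry of the form as an element of the symplectic group. -/
lemma exists_of_isometry (e : VV ≃ₗ[F] VV) (he : ∀ u v, BB (e u) (e v) = BB u v) :
    ∃ C : SP, ∀ v, lin C v = e v := by
  refine ⟨⟨LinearMap.toMatrix' e.toLinearMap, ?_⟩, fun v => ?_⟩
  · rw [CfsgLib.Forms.mem_symplecticGroup_iff_form]
    intro u v
    rw [LinearMap.toMatrix'_mulVec, LinearMap.toMatrix'_mulVec, ← CfsgLib.Omega.sympBilin_apply,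
      ← CfsgLib.Omega.sympBilin_apply]
    exact he u v
  · simp [lin, LinearMap.toMatrix'_mulVec]

lemma isConj_of_intertwine {A A' : SP} (e : VV ≃ₗ[F] VV) (he : ∀ u v, BB (e u) (e v) = BB u v)
    (h : ∀ v, e (lin A v) = lin A' (e v)) : IsConj A A' := by
  obtain ⟨C, hC⟩ := exists_of_isometry e he
  refine isConj_iff.mpr ⟨C, mul_inv_eq_iff_eq_mul.mpr (lin_ext fun v => ?_)⟩
  rw [lin_mul, lin_mul, hC, hC, h]

/-- The element `-1`. -/
def negOne : SP := ⟨-1, SymplecticGroup.neg_mem (one_mem _)⟩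

lemma lin_negOne (v : VV) : lin (negOne : SP) v = -v := by
  simp [lin, negOne, Matrix.neg_mulVec]

lemma negOne_mem_center : (negOne : SP) ∈ Subgroup.center SP :=
  Subgroup.mem_center_iff.mpr fun A => lin_ext fun v => by
    rw [lin_mul, lin_mul, lin_negOne, lin_negOne, map_neg]

lemma negOne_mul_self : (negOne : SP) * negOne = 1 :=
  lin_ext fun v => by rw [lin_mul, lin_negOne, lin_negOne, neg_neg]; simp [lin]

/-- Central elements are `±1`. -/
lemma center_cases (hm : 1 ≤ m) {A : SP} (hA : A ∈ Subgroup.center SP) : A = 1 ∨ A = negOne := by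
  obtain ⟨c, hc⟩ := CfsgLib.CharDegrees.sp_center_scalar hA
  have hlin : ∀ v, lin A v = c • v := fun v => by
    simp only [lin, Matrix.mulVecLin_apply, hc, Matrix.scalar_apply]
    ext i; simp [Matrix.mulVec_diagonal]
  have h := lin_form A (Pi.single (Sum.inl ⟨0, hm⟩) 1) (Pi.single (Sum.inr ⟨0, hm⟩) 1)
  have hv : BB (Pi.single (Sum.inl ⟨0, hm⟩) 1) (Pi.single (Sum.inr ⟨0, hm⟩) 1) = -1 := by
    rw [CfsgLib.Omega.sympBilin_apply, CfsgLib.Omega.sympForm_eq_sum]
    simp [Pi.single_apply, Finset.sum_ite_eq']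
  rw [hlin, hlin] at h
  simp only [map_smul, LinearMap.smul_apply, hv, smul_eq_mul] at h
  have hc1 : c * c = 1 := by linear_combination -h
  rcases mul_self_eq_one_iff.mp hc1 with rfl | rfl
  · exact Or.inl (lin_ext fun v => by rw [hlin, one_smul]; simp [lin])
  · exact Or.inr (lin_ext fun v => by rw [hlin, lin_negOne, neg_one_smul])

/-! ### Square `-1` -/

/-- A lift with square `-1` has a symplectic basis adapted to it. -/
lemma exists_basis_sq_negOne [Finite F] (h2 : (2 : F) ≠ 0) {A : SP} (hA : A * A = negOne) :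
    ∃ b : Basis (Fin m × Fin 2) F VV,
      (∀ i j s, BB (b (i, s)) (b (j, s)) = 0) ∧
      (∀ i j, BB (b (i, 0)) (b (j, 1)) = if i = j then 1 else 0) ∧
      (∀ i, lin A (b (i, 0)) = b (i, 1)) ∧ ∀ i, lin A (b (i, 1)) = -b (i, 0) := by
  classical
  have hz : ∀ w, lin A (lin A w) = (-1 : F) • w := fun w => by
    rw [← lin_mul, hA, lin_negOne, neg_one_smul]
  obtain ⟨α, _, _, b, π, hb⟩ := CfsgLib.Omega.exists_adapted_basis (B := BB) (f := lin A)
    CfsgLib.Omega.sympBilin_self CfsgLib.Omega.sympBilin_nondegenerate (lin_form A) hz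
  have hne : (-1 : F) ≠ 1 := fun h => h2 (by linear_combination -h)
  have hplane : ∀ i, ∃ v : VV, v ∈ Submodule.span F (b '' {x | x.1 = i}) ∧
      BB v (lin A v) = 1 ∧ lin A v ∈ Submodule.span F (b '' {x | x.1 = i}) := by
    intro i
    obtain ⟨-, k, k', hk, h0, h1⟩ := (hb.action i).resolve_right fun h => hne h.1
    have hk' : k' ≠ 0 := by
      intro h
      have := hz (b (i, 1))
      rw [h1, h, zero_smul, map_zero] at this
      exact b.ne_zero (i, 1) ((smul_eq_zero.mp this.symm).resolve_left (neg_ne_zero.mpr one_ne_zero))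
    obtain ⟨x, y, hxy⟩ := CfsgLib.Forms.exists_binary_diag_eq h2 hk (neg_ne_zero.mpr hk') (1 : F)
    have hm0 : b (i, 0) ∈ Submodule.span F (b '' {x | x.1 = i}) :=
      Submodule.subset_span ⟨(i, 0), rfl, rfl⟩
    have hm1 : b (i, 1) ∈ Submodule.span F (b '' {x | x.1 = i}) :=
      Submodule.subset_span ⟨(i, 1), rfl, rfl⟩
    refine ⟨x • b (i, 0) + y • b (i, 1),
      Submodule.add_mem _ (Submodule.smul_mem _ _ hm0) (Submodule.smul_mem _ _ hm1), ?_, ?_⟩
    · have h10 : BB (b (i, 1)) (b (i, 0)) = -1 := by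
        rw [CfsgLib.Omega.alt_skew CfsgLib.Omega.sympBilin_self, hb.pairing, if_pos rfl]
      simp only [map_add, map_smul, h0, h1, LinearMap.add_apply, LinearMap.smul_apply, smul_eq_mul,
        hb.pairing, ↓reduceIte, h10, hb.isotropic]
      linear_combination hxy
    · rw [map_add, map_smul, map_smul, h0, h1]
      exact Submodule.add_mem _ (Submodule.smul_mem _ _ (Submodule.smul_mem _ _ hm1))
        (Submodule.smul_mem _ _ (Submodule.smul_mem _ _ hm0))
  choose v hv hv1 hv' using hplane
  have hort : ∀ i j, i ≠ j → ∀ x ∈ Submodule.span F (b '' {x | x.1 = i}),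
      ∀ y ∈ Submodule.span F (b '' {x | x.1 = j}), BB x y = 0 := by
    intro i j hij x hx y hy
    induction hx using Submodule.span_induction with
    | zero => simp
    | add a a' _ _ ha ha' => simp [ha, ha']
    | smul r a _ ha => simp [ha]
    | mem x hx =>
      induction hy using Submodule.span_induction with
      | zero => simp
      | add a a' _ _ ha ha' => simp [ha, ha']
      | smul r a _ ha => simp [ha]
      | mem y hy =>
        obtain ⟨⟨i', s⟩, rfl, rfl⟩ := hx
        obtain ⟨⟨j', t⟩, rfl, rfl⟩ := hy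
        fin_cases s <;> fin_cases t
        · exact hb.isotropic _ _ _
        · exact (hb.pairing _ _).trans (if_neg hij)
        · refine (CfsgLib.Omega.alt_skew CfsgLib.Omega.sympBilin_self _ _).trans ?_
          exact neg_eq_zero.mpr ((hb.pairing _ _).trans (if_neg (Ne.symm hij)))
        · exact hb.isotropic _ _ _
  have hself : ∀ i j, BB (v i) (v j) = 0 := fun i j => by
    rcases eq_or_ne i j with rfl | h
    · exact CfsgLib.Omega.sympBilin_self _
    · exact hort i j h _ (hv i) _ (hv j)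
  let c : α × Fin 2 → VV := fun x => if x.2 = 0 then v x.1 else lin A (v x.1)
  have hc : CfsgLib.Omega.AdaptedFamily BB (lin A) (-1 : F) c 1 := by
    refine ⟨one_mul 1, fun i j s => ?_, fun i j => ?_, fun i => ?_⟩
    · fin_cases s
      · exact hself i j
      · show BB (lin A (v i)) (lin A (v j)) = 0
        rw [lin_form]; exact hself i j
    · show BB (v i) (lin A (v j)) = _
      split_ifs with h
      · rw [h, hv1]
      · exact hort i j h _ (hv i) _ (hv' j)
    · refine Or.inl ⟨rfl, 1, -1, one_ne_zero, ?_, ?_⟩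
      · show lin A (v i) = (1 : F) • lin A (v i); rw [one_smul]
      · show lin A (lin A (v i)) = (-1 : F) • v i; exact hz _
  have hcard : Fintype.card α = m := by
    have h := finrank_eq_card_basis b
    rw [finrank_pi] at h
    simp only [Fintype.card_sum, Fintype.card_prod, Fintype.card_fin] at h
    omega
  let e : α ≃ Fin m := Fintype.equivFinOfCardEq hcard
  have hli := hc.linearIndependent CfsgLib.Omega.sympBilin_self
  rcases eq_or_ne m 0 with rfl | hm0
  · refine ⟨(basisOfLinearIndependentOfCardEqFinrank' c hli (by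
      rw [finrank_pi]; simp [hcard])).reindex (e.prodCongr (Equiv.refl _)), ?_, ?_, ?_, ?_⟩ <;>
      intro i <;> exact i.elim0
  refine ⟨(basisOfLinearIndependentOfCardEqFinrank' c hli (by
      rw [finrank_pi]; simp [hcard]; omega)).reindex (e.prodCongr (Equiv.refl _)), ?_, ?_, ?_, ?_⟩
  · intro i j s; simpa using hc.isotropic (e.symm i) (e.symm j) s
  · intro i j; simpa [c] using hc.pairing (e.symm i) (e.symm j)
  · intro i; simp [c]
  · intro i; simpa [c] using hz (v (e.symm i))

lemma isConj_sq_negOne [Finite F] (h2 : (2 : F) ≠ 0) {A A' : SP} (hA : A * A = negOne)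
    (hA' : A' * A' = negOne) : IsConj A A' := by
  obtain ⟨b, b1, b2, b3, b4⟩ := exists_basis_sq_negOne h2 hA
  obtain ⟨c, c1, c2, c3, c4⟩ := exists_basis_sq_negOne h2 hA'
  have hB : LinearMap.compl₁₂ (BB) (b.equiv c (Equiv.refl _)).toLinearMap (b.equiv c (Equiv.refl _)).toLinearMap
      = BB := by
    refine LinearMap.ext_basis b b fun x y => ?_
    obtain ⟨i, s⟩ := x
    obtain ⟨j, t⟩ := y
    simp only [LinearMap.compl₁₂_apply, LinearEquiv.coe_coe, Basis.equiv_apply, Equiv.refl_apply]
    fin_cases s <;> fin_cases t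
    · exact (c1 i j 0).trans (b1 i j 0).symm
    · exact (c2 i j).trans (b2 i j).symm
    · refine (CfsgLib.Omega.alt_skew CfsgLib.Omega.sympBilin_self _ _).trans ?_
      refine Eq.trans ?_ (CfsgLib.Omega.alt_skew CfsgLib.Omega.sympBilin_self _ _).symm
      exact congrArg Neg.neg ((c2 j i).trans (b2 j i).symm)
    · exact (c1 i j 1).trans (b1 i j 1).symm
  refine isConj_of_intertwine (b.equiv c (Equiv.refl _)) (fun u v => LinearMap.congr_fun₂ hB u v) ?_
  have h : (b.equiv c (Equiv.refl _)).toLinearMap ∘ₗ lin A =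
      lin A' ∘ₗ (b.equiv c (Equiv.refl _)).toLinearMap := by
    refine b.ext fun x => ?_
    obtain ⟨i, s⟩ := x
    fin_cases s
    · simp [b3, c3]
    · simp [b4, c4]
  exact fun v => LinearMap.congr_fun h v

/-! ### Square `1` -/

/-- Eigenspace for `-1`. -/
def negSpace (A : SP) : Submodule F VV := LinearMap.ker (lin A + LinearMap.id)

/-- Eigenspace for `1`. -/
def posSpace (A : SP) : Submodule F VV := LinearMap.ker (lin A - LinearMap.id)

lemma mem_negSpace {A : SP} {v : VV} : v ∈ negSpace A ↔ lin A v = -v := by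
  simp [negSpace, add_eq_zero_iff_eq_neg]

lemma mem_posSpace {A : SP} {v : VV} : v ∈ posSpace A ↔ lin A v = v := by
  simp [posSpace, sub_eq_zero]

lemma isCompl_spaces (h2 : (2 : F) ≠ 0) {A : SP} (hA : A * A = 1) :
    IsCompl (posSpace A) (negSpace A) := by
  refine IsCompl.of_eq ?_ ?_
  · rw [Submodule.eq_bot_iff]
    intro v hv
    obtain ⟨h1, h3⟩ := Submodule.mem_inf.mp hv
    rw [mem_posSpace] at h1
    rw [mem_negSpace, h1] at h3
    have : (2 : F) • v = 0 := by rw [two_smul]; nth_rw 1 [h3]; rw [neg_add_cancel]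
    exact (smul_eq_zero.mp this).resolve_left h2
  · rw [eq_top_iff]
    intro v _
    have hinv : lin A (lin A v) = v := by rw [← lin_mul, hA]; simp [lin]
    rw [Submodule.mem_sup]
    refine ⟨(2 : F)⁻¹ • (v + lin A v), ?_, (2 : F)⁻¹ • (v - lin A v), ?_, ?_⟩
    · rw [mem_posSpace, map_smul, map_add, hinv, add_comm]
    · rw [mem_negSpace, map_smul, map_sub, hinv, ← smul_neg, neg_sub]
    · rw [← smul_add, add_add_sub_cancel, ← two_smul F v, inv_smul_smul₀ h2]

lemma orth_spaces (h2 : (2 : F) ≠ 0) {A : SP} {u w : VV} (hu : u ∈ posSpace A)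
    (hw : w ∈ negSpace A) : BB u w = 0 := by
  have h := lin_form A u w
  rw [mem_posSpace.mp hu, mem_negSpace.mp hw, map_neg] at h
  exact (mul_eq_zero.mp (show (2 : F) * BB u w = 0 by linear_combination -h)).resolve_left h2

/-- The form restricted to a subspace. -/
def res (W : Submodule F VV) : LinearMap.BilinForm F W := LinearMap.compl₁₂ (BB) W.subtype W.subtype

lemma res_isAlt (W : Submodule F VV) : (res W).IsAlt := fun w => CfsgLib.Omega.sympBilin_self _

lemma res_nondeg {P N : Submodule F VV} (hc : IsCompl P N)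
    (ho : ∀ u ∈ P, ∀ w ∈ N, BB u w = 0) : (res P).Nondegenerate := by
  have h : ∀ x : P, (∀ y : P, res P x y = 0) → x = 0 := by
    intro x hx
    apply Subtype.ext
    refine CfsgLib.Omega.sympBilin_nondegenerate _ fun w => ?_
    have hw : w ∈ P ⊔ N := by rw [hc.sup_eq_top]; exact Submodule.mem_top
    obtain ⟨p, hp, n, hn, rfl⟩ := Submodule.mem_sup.mp hw
    rw [map_add, ho _ x.2 n hn, add_zero]
    exact hx ⟨p, hp⟩
  exact ⟨h, fun y hy => h y fun x => by rw [← (res_isAlt P).neg_eq, hy x, neg_zero]⟩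

lemma even_negSpace (h2 : (2 : F) ≠ 0) {A : SP} (hA : A * A = 1) :
    ∃ k, finrank F (negSpace A) = 2 * k := by
  obtain ⟨k, b, -⟩ := CfsgLib.Forms.exists_symplectic_basis (res (negSpace A))
    (res_nondeg (isCompl_spaces h2 hA).symm fun u hu w hw => by
      rw [← (CfsgLib.Forms.sympBilin_isAlt m F).neg_eq, orth_spaces h2 hw hu, neg_zero])
    (res_isAlt _)
  exact ⟨k, by rw [finrank_eq_card_basis b]; simp; omega⟩

lemma isConj_sq_one (h2 : (2 : F) ≠ 0) {A A' : SP} (hA : A * A = 1) (hA' : A' * A' = 1)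
    (hd : finrank F (negSpace A) = finrank F (negSpace A')) : IsConj A A' := by
  have hc := isCompl_spaces h2 hA
  have hc' := isCompl_spaces h2 hA'
  have hskew : ∀ u w : VV, BB u w = -BB w u := CfsgLib.Omega.alt_skew CfsgLib.Omega.sympBilin_self
  have hd' : finrank F (posSpace A) = finrank F (posSpace A') := by
    have e1 := Submodule.finrank_add_eq_of_isCompl hc
    have e2 := Submodule.finrank_add_eq_of_isCompl hc'
    omega
  obtain ⟨ep, hep⟩ := CfsgLib.Forms.alt_isometric (res (posSpace A))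
    (res_nondeg hc fun u hu w hw => orth_spaces h2 hu hw) (res_isAlt _) (res (posSpace A'))
    (res_nondeg hc' fun u hu w hw => orth_spaces h2 hu hw) (res_isAlt _) hd'
  obtain ⟨en, hen⟩ := CfsgLib.Forms.alt_isometric (res (negSpace A))
    (res_nondeg hc.symm fun u hu w hw => by rw [hskew, orth_spaces h2 hw hu, neg_zero]) (res_isAlt _)
    (res (negSpace A'))
    (res_nondeg hc'.symm fun u hu w hw => by rw [hskew, orth_spaces h2 hw hu, neg_zero])
    (res_isAlt _) hd
  let e : VV ≃ₗ[F] VV := ((Submodule.prodEquivOfIsCompl _ _ hc).symm.trans (ep.prodCongr en)).trans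
    (Submodule.prodEquivOfIsCompl _ _ hc')
  have he : ∀ (p : posSpace A) (n : negSpace A),
      e ((p : VV) + (n : VV)) = (ep p : VV) + (en n : VV) := fun p n => by
    have : ((p : VV) + (n : VV)) = Submodule.prodEquivOfIsCompl _ _ hc (p, n) := rfl
    simp only [e, LinearEquiv.trans_apply]
    rw [this, LinearEquiv.symm_apply_apply]
    simp
  have hsurj : ∀ v : VV, ∃ (p : posSpace A) (n : negSpace A), v = (p : VV) + (n : VV) := fun v =>
    ⟨((Submodule.prodEquivOfIsCompl _ _ hc).symm v).1, ((Submodule.prodEquivOfIsCompl _ _ hc).symm v).2,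
      ((Submodule.prodEquivOfIsCompl _ _ hc).apply_symm_apply v).symm⟩
  refine isConj_of_intertwine e (fun u v => ?_) fun v => ?_
  · obtain ⟨p, n, rfl⟩ := hsurj u
    obtain ⟨p', n', rfl⟩ := hsurj v
    rw [he, he]
    simp only [map_add, LinearMap.add_apply]
    rw [orth_spaces h2 (ep p).2 (en n').2, orth_spaces h2 p.2 n'.2,
      hskew (en n : VV) (ep p' : VV), orth_spaces h2 (ep p').2 (en n).2,
      hskew (n : VV) (p' : VV), orth_spaces h2 p'.2 n.2]
    have h1 : BB (ep p : VV) (ep p' : VV) = BB (p : VV) (p' : VV) := hep p p'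
    have h3 : BB (en n : VV) (en n' : VV) = BB (n : VV) (n' : VV) := hen n n'
    rw [h1, h3]
  · obtain ⟨p, n, rfl⟩ := hsurj v
    rw [map_add (lin A), mem_posSpace.mp p.2, mem_negSpace.mp n.2, he, map_add (lin A'),
      mem_posSpace.mp (ep p).2, mem_negSpace.mp (en n).2,
      show (-(n : VV)) = ((-n : negSpace A) : VV) from rfl, he, map_neg]
    rfl

/-- The label of an involution of `PSp`. -/
def HasType (j : ℕ) (x : Cfsg.PSp m F) : Prop :=
  ∃ A : SP, QuotientGroup.mk' (Subgroup.center SP) A = x ∧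
    ((j = 0 ∧ A * A = negOne) ∨ (1 ≤ j ∧ A * A = 1 ∧ finrank F (negSpace A) = 2 * j))

theorem isConj_of_hasType [Finite F] (h2 : (2 : F) ≠ 0) {j : ℕ} {x y : Cfsg.PSp m F}
    (hx : HasType j x) (hy : HasType j y) : IsConj x y := by
  obtain ⟨A, rfl, hA⟩ := hx
  obtain ⟨A', rfl, hA'⟩ := hy
  refine MonoidHom.map_isConj _ ?_
  rcases hA with ⟨rfl, hA⟩ | ⟨hj, hA, hd⟩
  · exact isConj_sq_negOne h2 hA (hA'.resolve_right fun h => absurd h.1 (by omega)).2
  · obtain ⟨-, hA', hd'⟩ := hA'.resolve_left fun h => absurd h.1 (by omega)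
    exact isConj_sq_one h2 hA hA' (hd.trans hd'.symm)

theorem exists_hasType [Finite F] (h2 : (2 : F) ≠ 0) (hm : 1 ≤ m) {x : Cfsg.PSp m F}
    (hx : orderOf x = 2) : ∃ j, j ≤ m / 2 ∧ HasType j x := by
  obtain ⟨A, rfl⟩ := QuotientGroup.mk'_surjective _ x
  have hnc : A ∉ Subgroup.center SP := fun h => by
    rw [QuotientGroup.mk'_apply, (QuotientGroup.eq_one_iff A).mpr h, orderOf_one] at hx
    exact absurd hx (by norm_num)
  have hsq : A * A ∈ Subgroup.center SP := by
    have := pow_orderOf_eq_one (QuotientGroup.mk' (Subgroup.center SP) A)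
    rwa [hx, ← map_pow, QuotientGroup.mk'_apply, QuotientGroup.eq_one_iff, pow_two] at this
  rcases center_cases hm hsq with h | h
  · obtain ⟨k, hk⟩ := even_negSpace h2 h
    have hc := isCompl_spaces h2 h
    have hdim := Submodule.finrank_add_eq_of_isCompl hc
    rw [finrank_pi, Fintype.card_sum, Fintype.card_fin] at hdim
    have hk0 : k ≠ 0 := by
      rintro rfl
      apply hnc
      have hbot : negSpace A = ⊥ := Submodule.finrank_eq_zero.mp (by omega)
      have htop : posSpace A = ⊤ := by rw [← hc.sup_eq_top, hbot, sup_bot_eq]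
      have hA1 : A = 1 := lin_ext fun v => by
        rw [mem_posSpace.mp (htop ▸ Submodule.mem_top : v ∈ posSpace A)]; simp [lin]
      rw [hA1]; exact one_mem _
    have hkm : k ≠ m := by
      rintro rfl
      apply hnc
      have htop : negSpace A = ⊤ := Submodule.eq_top_of_finrank_eq (by
        rw [hk, finrank_pi, Fintype.card_sum, Fintype.card_fin]; omega)
      have hA1 : A = negOne := lin_ext fun v => by
        rw [mem_negSpace.mp (htop ▸ Submodule.mem_top : v ∈ negSpace A), lin_negOne]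
      rw [hA1]; exact negOne_mem_center
    by_cases hk2 : k ≤ m / 2
    · exact ⟨k, hk2, A, rfl, Or.inr ⟨Nat.pos_of_ne_zero hk0, h, hk⟩⟩
    · have hlin : ∀ v, lin (negOne * A) v = -lin A v := fun v => by rw [lin_mul, lin_negOne]
      refine ⟨m - k, by omega, negOne * A, ?_, Or.inr ⟨by omega, ?_, ?_⟩⟩
      · rw [map_mul, QuotientGroup.mk'_apply _ negOne,
          (QuotientGroup.eq_one_iff _).mpr negOne_mem_center, one_mul]
      · refine lin_ext fun v => ?_
        rw [lin_mul, hlin, hlin, map_neg, neg_neg, ← lin_mul, h]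
      · have hs : negSpace (negOne * A) = posSpace A := by
          ext v; rw [mem_negSpace, mem_posSpace, hlin, neg_inj]
        rw [hs]
        omega
  · exact ⟨0, Nat.zero_le _, A, rfl, Or.inl ⟨rfl, h⟩⟩

end CfsgLib.PSpInv
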