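/-
Discriminant of a tensor product of two symmetric bilinear forms.
-/
import Mathlib
import Cfsg.Agent.Lib.Parabolic.DiagForms

set_option autoImplicit false
set_option linter.unusedSectionVars false

namespace CfsgLib.DiagForms

open Module TensorProduct

variable {F U W : Type*} [Field F] [AddCommGroup U] [Module F U] [AddCommGroup W] [Module F W]

lemma tmul_apply_basic (B₁ : LinearMap.BilinForm F U) (B₂ : LinearMap.BilinForm F W) (u u' : U)
    (w w' : W) : (B₁.tmul B₂) (u ⊗ₜ[F] w) (u' ⊗ₜ[F] w') = B₁ u u' * B₂ w w' := by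
  rw [LinearMap.BilinForm.tensorDistrib_tmul, smul_eq_mul, mul_comm]

/-- Orthogonal bases, the tensor product, and its discriminant. -/
theorem exists_disc_tmul [Finite F] [FiniteDimensional F U] [FiniteDimensional F W]
    (h2 : (2 : F) ≠ 0) {B₁ : LinearMap.BilinForm F U} {B₂ : LinearMap.BilinForm F W}
    (h₁ : B₁.Nondegenerate) (h₂ : B₂.Nondegenerate) (hS₁ : B₁.IsSymm) (hS₂ : B₂.IsSymm) :
    ∃ (b : Basis (Fin (finrank F U)) F U) (c : Basis (Fin (finrank F W)) F W),
      LinearMap.BilinForm.IsSymm (B₁.tmul B₂) ∧ LinearMap.BilinForm.Nondegenerate (B₁.tmul B₂) ∧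
      (LinearMap.BilinForm.toMatrix (b.tensorProduct c) (B₁.tmul B₂)).det =
        (LinearMap.BilinForm.toMatrix b B₁).det ^ finrank F W *
          (LinearMap.BilinForm.toMatrix c B₂).det ^ finrank F U := by
  haveI : Invertible (2 : F) := invertibleOfNonzero h2
  obtain ⟨b, hb⟩ := LinearMap.BilinForm.exists_orthogonal_basis (B := B₁) ⟨fun x y => hS₁.eq x y⟩
  obtain ⟨c, hc⟩ := LinearMap.BilinForm.exists_orthogonal_basis (B := B₂) ⟨fun x y => hS₂.eq x y⟩
  have hdet : (LinearMap.BilinForm.toMatrix (b.tensorProduct c) (B₁.tmul B₂)).det =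
      (LinearMap.BilinForm.toMatrix b B₁).det ^ finrank F W *
        (LinearMap.BilinForm.toMatrix c B₂).det ^ finrank F U := by
    rw [det_toMatrix_of_ortho B₁ b fun i j h => hb h,
      det_toMatrix_of_ortho B₂ c fun i j h => hc h, det_toMatrix_of_ortho]
    · rw [Fintype.prod_prod_type]
      simp only [Basis.tensorProduct_apply, tmul_apply_basic]
      simp only [Finset.prod_mul_distrib, Finset.prod_const, Finset.card_univ, Fintype.card_fin,
        Finset.prod_pow]
    · rintro ⟨i, j⟩ ⟨i', j'⟩ h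
      rw [Basis.tensorProduct_apply, Basis.tensorProduct_apply, tmul_apply_basic]
      rw [Ne, Prod.mk.injEq, not_and_or] at h
      rcases h with h | h
      · rw [show B₁ (b i) (b i') = 0 from hb h, zero_mul]
      · rw [show B₂ (c j) (c j') = 0 from hc h, mul_zero]
  have hsym : LinearMap.IsSymm (B₁.tmul B₂) :=
    LinearMap.IsSymm.tmul ⟨fun x y => hS₁.eq x y⟩ ⟨fun x y => hS₂.eq x y⟩
  refine ⟨b, c, ⟨fun x y => hsym.eq x y⟩, ?_, hdet⟩
  rw [LinearMap.BilinForm.nondegenerate_iff_det_ne_zero (b.tensorProduct c), hdet]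
  exact mul_ne_zero (pow_ne_zero _ (det_ne_zero h₁ b)) (pow_ne_zero _ (det_ne_zero h₂ c))

end CfsgLib.DiagForms
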